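import Mathlib

set_option autoImplicit false

namespace Cfsg.Agent.Helper2

open scoped Pointwise

theorem mem_conj_smul' {P : Type*} [Group P] {H : Subgroup P} {g x : P} :
    x ∈ MulAut.conj g • H ↔ g⁻¹ * x * g ∈ H := by
  rw [Subgroup.mem_pointwise_smul_iff_inv_smul_mem, ← map_inv, MulAut.smul_def, MulAut.conj_apply,
    inv_inv]

theorem conj_mem_conj_smul {P : Type*} [Group P] {H : Subgroup P} (g : P) {x : P} (hx : x ∈ H) :
    g * x * g⁻¹ ∈ MulAut.conj g • H := by
  rw [mem_conj_smul']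
  have : g⁻¹ * (g * x * g⁻¹) * g = x := by group
  rw [this]
  exact hx

theorem card_a5 : Nat.card (alternatingGroup (Fin 5)) = 60 := by
  have h := two_mul_nat_card_alternatingGroup (α := Fin 5)
  rw [Nat.card_perm, Nat.card_fin] at h
  have h5 : Nat.factorial 5 = 120 := by decide
  omega

theorem a5_no_index_two {L : Type*} [Group L] (e : L ≃* alternatingGroup (Fin 5))
    (K : Subgroup L) : K.index ≠ 2 := by
  intro h
  have hn : K.Normal := Subgroup.normal_of_index_eq_two h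
  have hcard : Nat.card L = 60 := by rw [Nat.card_congr e.toEquiv, card_a5]
  have hfin : Finite L := Nat.finite_of_card_ne_zero (by omega)
  have hnt : Nontrivial L := by
    have : 1 < Nat.card L := by omega
    exact (Finite.one_lt_card_iff_nontrivial).mp this
  have hsimp : IsSimpleGroup L :=
    IsSimpleGroup.isSimpleGroup_of_surjective (G := alternatingGroup (Fin 5)) e.symm.toMonoidHom
      e.symm.surjective
  rcases hn.eq_bot_or_eq_top with h1 | h1
  · rw [h1, Subgroup.index_bot, hcard] at h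
    omega
  · rw [h1, Subgroup.index_top] at h
    omega

def a5x : alternatingGroup (Fin 5) := ⟨Equiv.swap 0 1 * Equiv.swap 2 3, by
  rw [Equiv.Perm.mem_alternatingGroup, Equiv.Perm.sign_mul, Equiv.Perm.sign_swap (by decide),
    Equiv.Perm.sign_swap (by decide)]
  rfl⟩
def a5y : alternatingGroup (Fin 5) := ⟨Equiv.swap 0 2 * Equiv.swap 2 4, by
  rw [Equiv.Perm.mem_alternatingGroup, Equiv.Perm.sign_mul, Equiv.Perm.sign_swap (by decide),
    Equiv.Perm.sign_swap (by decide)]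
  rfl⟩

theorem a5x_order : orderOf a5x = 2 := orderOf_eq_prime (by decide) (by decide)
theorem a5y_order : orderOf a5y = 3 := orderOf_eq_prime (by decide) (by decide)
theorem a5xy_order : orderOf (a5x * a5y) = 5 := by
  have _h5 : Fact (Nat.Prime 5) := ⟨by norm_num⟩
  exact orderOf_eq_prime (by decide) (by decide)

theorem conj_eq_of_mem {P : Type*} [Group P] [Finite P] {L H : Subgroup P}
    (e : L ≃* alternatingGroup (Fin 5)) (hH : Nat.card H = 60) (g x y : P) (hxL : x ∈ L)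
    (hyL : y ∈ L) (hx : orderOf x = 2) (hy : orderOf y = 3) (hxy : orderOf (x * y) = 5)
    (h1 : g * x * g⁻¹ ∈ H) (h2 : g * y * g⁻¹ ∈ H) : MulAut.conj g • L = H := by
  have eL' : (MulAut.conj g • L : Subgroup P) ≃* alternatingGroup (Fin 5) :=
    (Subgroup.equivSMul (MulAut.conj g) L).symm.trans e
  have hL' : Nat.card (MulAut.conj g • L : Subgroup P) = 60 := by
    rw [Nat.card_congr eL'.toEquiv, card_a5]
  have hx' : g * x * g⁻¹ ∈ MulAut.conj g • L := conj_mem_conj_smul g hxL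
  have hy' : g * y * g⁻¹ ∈ MulAut.conj g • L := conj_mem_conj_smul g hyL
  have hxy' : g * (x * y) * g⁻¹ ∈ MulAut.conj g • L := conj_mem_conj_smul g (L.mul_mem hxL hyL)
  have hxyH : g * (x * y) * g⁻¹ ∈ H := by
    have : g * (x * y) * g⁻¹ = (g * x * g⁻¹) * (g * y * g⁻¹) := by group
    rw [this]
    exact H.mul_mem h1 h2
  have hord : ∀ z : P, orderOf (g * z * g⁻¹) = orderOf z := fun z => by
    have := MulEquiv.orderOf_eq (MulAut.conj g) z
    rwa [MulAut.conj_apply] at this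
  have hdvd : ∀ z : P, z ∈ (MulAut.conj g • L) ⊓ H →
      orderOf z ∣ Nat.card ((MulAut.conj g • L) ⊓ H : Subgroup P) := by
    intro z hz
    have := orderOf_dvd_natCard (⟨z, hz⟩ : ((MulAut.conj g • L) ⊓ H : Subgroup P))
    rwa [Subgroup.orderOf_mk] at this
  have d2 := hdvd _ ⟨hx', h1⟩
  have d3 := hdvd _ ⟨hy', h2⟩
  have d5 := hdvd _ ⟨hxy', hxyH⟩
  rw [hord, hx] at d2
  rw [hord, hy] at d3
  rw [hord, hxy] at d5
  have dK : Nat.card ((MulAut.conj g • L) ⊓ H : Subgroup P) ∣ 60 := by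
    rw [← hL']
    exact Subgroup.card_dvd_of_le inf_le_left
  have hpos : 0 < Nat.card ((MulAut.conj g • L) ⊓ H : Subgroup P) := Nat.card_pos
  have hle : Nat.card ((MulAut.conj g • L) ⊓ H : Subgroup P) ≤ 60 := Nat.le_of_dvd (by norm_num) dK
  have hcases : Nat.card ((MulAut.conj g • L) ⊓ H : Subgroup P) = 30 ∨
      Nat.card ((MulAut.conj g • L) ⊓ H : Subgroup P) = 60 := by omega
  rcases hcases with h30 | h60
  · exfalso
    apply a5_no_index_two eL' (((MulAut.conj g • L) ⊓ H).subgroupOf (MulAut.conj g • L))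
    have hc : Nat.card (((MulAut.conj g • L) ⊓ H).subgroupOf (MulAut.conj g • L)) = 30 := by
      rw [Nat.card_congr (Subgroup.subgroupOfEquivOfLe inf_le_left).toEquiv, h30]
    have hm := Subgroup.card_mul_index (((MulAut.conj g • L) ⊓ H).subgroupOf (MulAut.conj g • L))
    rw [hc, hL'] at hm
    omega
  · have e1 : (MulAut.conj g • L) ⊓ H = MulAut.conj g • L :=
      Subgroup.eq_of_le_of_card_ge inf_le_left (by rw [hL', h60])
    have e2 : (MulAut.conj g • L) ⊓ H = H :=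
      Subgroup.eq_of_le_of_card_ge inf_le_right (by rw [hH, h60])
    rw [← e1, e2]

theorem card_conj_class {P : Type*} [Group P] [Finite P] (H : Subgroup P) (hidx : H.index = 11)
    (hN : ∀ g : P, g ∉ H → ∃ h ∈ H, g * h * g⁻¹ ∉ H) :
    (Set.range (fun g : P => MulAut.conj g • H)).ncard = 11 := by
  let _inst : MulAction P (Subgroup P) :=
    MulAction.compHom (Subgroup P) (MulAut.conj : P →* MulAut P)
  have horb : MulAction.orbit P H = Set.range (fun g : P => MulAut.conj g • H) := rfl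
  have hstab : MulAction.stabilizer P H = H := by
    ext g
    rw [MulAction.mem_stabilizer_iff]
    show MulAut.conj g • H = H ↔ g ∈ H
    constructor
    · intro hg
      by_contra hgH
      obtain ⟨h, hh, hne⟩ := hN g hgH
      apply hne
      rw [← hg]
      exact conj_mem_conj_smul g hh
    · intro hg
      exact Subgroup.conj_smul_eq_self_of_mem hg
  rw [← horb, ← MulAction.index_stabilizer, hstab, hidx]

/-- Abstract counting: two non-conjugate self-normalising `A₅`-subgroups of index 11 into which every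
`(2,3,5)`-pair can be conjugated. -/
theorem a5_count {P : Type*} [Group P] [Finite P] (H₁ H₂ : Subgroup P)
    (e₁ : Nonempty (H₁ ≃* alternatingGroup (Fin 5))) (e₂ : Nonempty (H₂ ≃* alternatingGroup (Fin 5)))
    (hidx₁ : H₁.index = 11) (hidx₂ : H₂.index = 11)
    (L1 : ∀ x y : P, orderOf x = 2 → orderOf y = 3 → orderOf (x * y) = 5 →
      ∃ g : P, (g * x * g⁻¹ ∈ H₁ ∧ g * y * g⁻¹ ∈ H₁) ∨ (g * x * g⁻¹ ∈ H₂ ∧ g * y * g⁻¹ ∈ H₂))
    (L2₁ : ∀ g : P, g ∉ H₁ → ∃ h ∈ H₁, g * h * g⁻¹ ∉ H₁)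
    (L2₂ : ∀ g : P, g ∉ H₂ → ∃ h ∈ H₂, g * h * g⁻¹ ∉ H₂)
    (L3 : ∀ g : P, ∃ h ∈ H₁, g * h * g⁻¹ ∉ H₂) :
    Nat.card {H : Subgroup P // Nonempty (H ≃* alternatingGroup (Fin 5))} = 22 ∧
      ∃ H K : Subgroup P, Nonempty (H ≃* alternatingGroup (Fin 5)) ∧
        Nonempty (K ≃* alternatingGroup (Fin 5)) ∧ (∀ g : P, MulAut.conj g • H ≠ K) ∧
        ∀ L : Subgroup P, Nonempty (L ≃* alternatingGroup (Fin 5)) →
          ∃ g : P, MulAut.conj g • L = H ∨ MulAut.conj g • L = K := by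
  obtain ⟨e₁⟩ := e₁
  obtain ⟨e₂⟩ := e₂
  have hc₁ : Nat.card H₁ = 60 := by rw [Nat.card_congr e₁.toEquiv, card_a5]
  have hc₂ : Nat.card H₂ = 60 := by rw [Nat.card_congr e₂.toEquiv, card_a5]
  have hB : ∀ L : Subgroup P, Nonempty (L ≃* alternatingGroup (Fin 5)) →
      ∃ g : P, MulAut.conj g • L = H₁ ∨ MulAut.conj g • L = H₂ := by
    rintro L ⟨e⟩
    have hx : orderOf ((e.symm a5x : L) : P) = 2 := by
      rw [Subgroup.orderOf_coe, MulEquiv.orderOf_eq, a5x_order]
    have hy : orderOf ((e.symm a5y : L) : P) = 3 := by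
      rw [Subgroup.orderOf_coe, MulEquiv.orderOf_eq, a5y_order]
    have hxy : orderOf (((e.symm a5x : L) : P) * ((e.symm a5y : L) : P)) = 5 := by
      have h : ((e.symm a5x : L) : P) * ((e.symm a5y : L) : P) = ((e.symm (a5x * a5y) : L) : P) := by
        rw [map_mul]
        rfl
      rw [h, Subgroup.orderOf_coe, MulEquiv.orderOf_eq, a5xy_order]
    obtain ⟨g, hg⟩ := L1 _ _ hx hy hxy
    refine ⟨g, ?_⟩
    rcases hg with ⟨h1, h2⟩ | ⟨h1, h2⟩
    · exact Or.inl (conj_eq_of_mem e hc₁ g _ _ (e.symm a5x).2 (e.symm a5y).2 hx hy hxy h1 h2)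
    · exact Or.inr (conj_eq_of_mem e hc₂ g _ _ (e.symm a5x).2 (e.symm a5y).2 hx hy hxy h1 h2)
  have hC : ∀ g : P, MulAut.conj g • H₁ ≠ H₂ := by
    intro g hg
    obtain ⟨h, hh, hne⟩ := L3 g
    apply hne
    rw [← hg]
    exact conj_mem_conj_smul g hh
  refine ⟨?_, H₁, H₂, ⟨e₁⟩, ⟨e₂⟩, hC, hB⟩
  have hset : {H : Subgroup P | Nonempty (H ≃* alternatingGroup (Fin 5))} =
      Set.range (fun g : P => MulAut.conj g • H₁) ∪ Set.range (fun g : P => MulAut.conj g • H₂) := by
    ext L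
    constructor
    · intro hL
      obtain ⟨g, hg⟩ := hB L hL
      have hLg : ∀ K : Subgroup P, MulAut.conj g • L = K → L = MulAut.conj g⁻¹ • K := by
        intro K hK
        rw [← hK, ← mul_smul, ← map_mul, inv_mul_cancel, map_one, one_smul]
      rcases hg with hg | hg
      · exact Or.inl ⟨g⁻¹, (hLg _ hg).symm⟩
      · exact Or.inr ⟨g⁻¹, (hLg _ hg).symm⟩
    · rintro (⟨g, rfl⟩ | ⟨g, rfl⟩)
      · exact ⟨(Subgroup.equivSMul (MulAut.conj g) H₁).symm.trans e₁⟩
      · exact ⟨(Subgroup.equivSMul (MulAut.conj g) H₂).symm.trans e₂⟩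
  have hdisj : Disjoint (Set.range (fun g : P => MulAut.conj g • H₁))
      (Set.range (fun g : P => MulAut.conj g • H₂)) := by
    rw [Set.disjoint_left]
    rintro L ⟨g, rfl⟩ ⟨g', hg'⟩
    have hg'' : MulAut.conj g' • H₂ = MulAut.conj g • H₁ := hg'
    apply hC (g'⁻¹ * g)
    have : MulAut.conj (g'⁻¹ * g) • H₁ = MulAut.conj g'⁻¹ • (MulAut.conj g • H₁) := by
      rw [map_mul, mul_smul]
    rw [this, ← hg'', ← mul_smul, ← map_mul, inv_mul_cancel, map_one, one_smul]
  show Nat.card ↥{H : Subgroup P | Nonempty (H ≃* alternatingGroup (Fin 5))} = 22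
  rw [Nat.card_coe_set_eq, hset, Set.ncard_union_eq hdisj (Set.toFinite _) (Set.toFinite _),
    card_conj_class H₁ hidx₁ L2₁, card_conj_class H₂ hidx₂ L2₂]

end Cfsg.Agent.Helper2
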