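import Cfsg.Agent.Helper2.Dihedral
import Cfsg.Agent.Helper2.StronglyEmbedded
import Cfsg.Agent.S0237
import Cfsg.Agent.S0238

set_option autoImplicit false

namespace Cfsg.Agent.Helper2

/-- The extended centralizer of `x`: the elements conjugating `x` to `x` or to `x⁻¹`. -/
def extCentralizer {G : Type*} [Group G] (x : G) : Subgroup G where
  carrier := {g | g * x * g⁻¹ = x ∨ g * x * g⁻¹ = x⁻¹}
  one_mem' := Or.inl (by group)
  mul_mem' := by
    rintro a b (ha | ha) (hb | hb)
    · left
      calc a * b * x * (a * b)⁻¹ = a * (b * x * b⁻¹) * a⁻¹ := by group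
        _ = x := by rw [hb, ha]
    · right
      calc a * b * x * (a * b)⁻¹ = a * (b * x * b⁻¹) * a⁻¹ := by group
        _ = (a * x * a⁻¹)⁻¹ := by rw [hb]; group
        _ = x⁻¹ := by rw [ha]
    · right
      calc a * b * x * (a * b)⁻¹ = a * (b * x * b⁻¹) * a⁻¹ := by group
        _ = x⁻¹ := by rw [hb, ha]
    · left
      calc a * b * x * (a * b)⁻¹ = a * (b * x * b⁻¹) * a⁻¹ := by group
        _ = (a * x * a⁻¹)⁻¹ := by rw [hb]; group
        _ = x := by rw [ha, inv_inv]
  inv_mem' := by
    rintro a (ha | ha)
    · left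
      calc a⁻¹ * x * a⁻¹⁻¹ = a⁻¹ * (a * x * a⁻¹) * a := by rw [ha]; group
        _ = x := by group
    · right
      calc a⁻¹ * x * a⁻¹⁻¹ = (a⁻¹ * x⁻¹ * a)⁻¹ := by group
        _ = (a⁻¹ * (a * x * a⁻¹) * a)⁻¹ := by rw [ha]
        _ = x⁻¹ := by group

theorem mem_extCentralizer {G : Type*} [Group G] (x g : G) :
    g ∈ extCentralizer x ↔ g * x * g⁻¹ = x ∨ g * x * g⁻¹ = x⁻¹ := Iff.rfl

theorem card_extCentralizer {G : Type*} [Group G] [Finite G] (x : G) (hx : x ^ 2 ≠ 1)
    (hreal : IsConj x x⁻¹) :
    Nat.card (extCentralizer x) = 2 * Nat.card (Subgroup.centralizer ({x} : Set G)) := by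
  classical
  have := Fintype.ofFinite G
  have h1 : Nat.card (extCentralizer x) =
      (Finset.univ.filter (fun g : G => g * x * g⁻¹ = x ∨ g * x * g⁻¹ = x⁻¹)).card := by
    rw [Nat.card_eq_fintype_card, Fintype.card_subtype]
    exact congrArg Finset.card (Finset.filter_congr (fun g _ => mem_extCentralizer x g))
  have h2 : Nat.card (Subgroup.centralizer ({x} : Set G)) =
      (Finset.univ.filter (fun g : G => g * x * g⁻¹ = x)).card := by
    rw [Nat.card_eq_fintype_card, Fintype.card_subtype]
    congr 1
    ext g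
    rw [Finset.mem_filter, Finset.mem_filter, Subgroup.mem_centralizer_singleton_iff]
    constructor
    · rintro ⟨-, h⟩
      refine ⟨Finset.mem_univ _, ?_⟩
      rw [h]; group
    · rintro ⟨-, h⟩
      refine ⟨Finset.mem_univ _, ?_⟩
      calc g * x = (g * x * g⁻¹) * g := by group
        _ = x * g := by rw [h]
  have h3 : Nat.card {g : G // g * x * g⁻¹ = x⁻¹} =
      (Finset.univ.filter (fun g : G => g * x * g⁻¹ = x⁻¹)).card := by
    rw [Nat.card_eq_fintype_card, Fintype.card_subtype]
  have h4 := S0237.result x hreal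
  rw [h1, Finset.filter_or, Finset.card_union_of_disjoint, ← h2, ← h3, h4]
  · ring
  · rw [Finset.disjoint_filter]
    intro g _ hg1 hg2
    rw [hg1] at hg2
    apply hx
    calc x ^ 2 = x * x := pow_two x
      _ = x⁻¹ * x := by rw [← hg2]
      _ = 1 := by group

/-- The counting core of the Brauer–Fowler theorem. -/
theorem brauer_fowler_core {G : Type*} [Group G] [Finite G]
    (hZ : Odd (Nat.card (Subgroup.center G))) (hno2 : ∀ H : Subgroup G, H.index ≠ 2) (h : ℕ)
    (hh : ∀ K : Subgroup G, K ≠ ⊤ → h ≤ K.index) :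
    2 * h * (Nat.card {t : G // orderOf t = 2}) ^ 2 <
      Nat.card G * (Nat.card G + Nat.card {t : G // orderOf t = 2}) := by
  classical
  have := Fintype.ofFinite G
  -- the sum identity
  have hsum : ∑ x : G, Nat.card {p : G × G // orderOf p.1 = 2 ∧ orderOf p.2 = 2 ∧ p.1 * p.2 = x} =
      Nat.card {t : G // orderOf t = 2} * Nat.card {t : G // orderOf t = 2} := by
    rw [← Nat.card_prod, ← Nat.card_sigma]
    apply Nat.card_congr
    refine
      { toFun := fun s => (⟨s.2.1.1, s.2.2.1⟩, ⟨s.2.1.2, s.2.2.2.1⟩)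
        invFun := fun uv => ⟨uv.1.1 * uv.2.1, ⟨(uv.1.1, uv.2.1), uv.1.2, uv.2.2, rfl⟩⟩
        left_inv := ?_
        right_inv := ?_ }
    · rintro ⟨x, ⟨p, h1, h2, h3⟩⟩
      subst h3
      rfl
    · rintro ⟨u, v⟩
      rfl
  have hone : Nat.card {p : G × G // orderOf p.1 = 2 ∧ orderOf p.2 = 2 ∧ p.1 * p.2 = 1} =
      Nat.card {t : G // orderOf t = 2} := by
    apply Nat.card_congr
    refine
      { toFun := fun p => ⟨p.1.1, p.2.1⟩
        invFun := fun t => ⟨(t.1, t.1), t.2, t.2, sq_of_orderOf_two t.2⟩
        left_inv := ?_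
        right_inv := ?_ }
    · rintro ⟨⟨u, v⟩, h1, h2, h3⟩
      have : v = u := by
        have h4 : v = u⁻¹ := (inv_eq_of_mul_eq_one_right h3).symm
        rw [h4, inv_of_orderOf_two h1]
      subst this
      rfl
    · rintro ⟨t, ht⟩
      rfl
  have hNpos : 0 < Nat.card G := Nat.card_pos
  have hcenter := (odd_card_iff_no_involution (Subgroup.center G)).mp hZ
  have hinv : ∀ x : G, orderOf x = 2 →
      2 * h * Nat.card {p : G × G // orderOf p.1 = 2 ∧ orderOf p.2 = 2 ∧ p.1 * p.2 = x} + 4 * h ≤
        2 * Nat.card G := by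
    intro x hx
    have h1 := (S0238.result x).2.2 hx
    have hne : Subgroup.centralizer ({x} : Set G) ≠ ⊤ := by
      intro htop
      apply hcenter x _ hx
      rw [Subgroup.mem_center_iff]
      intro g
      have : g ∈ Subgroup.centralizer ({x} : Set G) := by rw [htop]; trivial
      rw [Subgroup.mem_centralizer_singleton_iff] at this
      exact this
    have h2 := hh _ hne
    have h3 := Subgroup.card_mul_index (Subgroup.centralizer ({x} : Set G))
    have h4 : Nat.card (Subgroup.centralizer ({x} : Set G)) * h ≤ Nat.card G := by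
      rw [← h3]
      exact Nat.mul_le_mul_left _ h2
    nlinarith
  have hother : ∀ x : G, x ≠ 1 → orderOf x ≠ 2 →
      2 * h * Nat.card {p : G × G // orderOf p.1 = 2 ∧ orderOf p.2 = 2 ∧ p.1 * p.2 = x} ≤
        Nat.card G := by
    intro x hx1 hx2
    have hxsq : x ^ 2 ≠ 1 := by
      intro hsq
      apply hx2
      apply orderOf_two_of_sq hx1
      rw [← pow_two]
      exact hsq
    by_cases hreal : IsConj x x⁻¹
    · have h1 := (S0238.result x).1
      have hcard := card_extCentralizer x hxsq hreal
      have hne : extCentralizer x ≠ ⊤ := by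
        intro htop
        apply hno2 (Subgroup.centralizer ({x} : Set G))
        have h3 := Subgroup.card_mul_index (Subgroup.centralizer ({x} : Set G))
        have h4 : Nat.card (extCentralizer x) = Nat.card G := by
          rw [htop, Subgroup.card_top]
        rw [hcard] at h4
        have hcpos : 0 < Nat.card (Subgroup.centralizer ({x} : Set G)) := Nat.card_pos
        have h5 : Nat.card (Subgroup.centralizer ({x} : Set G)) *
            (Subgroup.centralizer ({x} : Set G)).index =
            Nat.card (Subgroup.centralizer ({x} : Set G)) * 2 := by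
          rw [h3, ← h4]; ring
        exact Nat.eq_of_mul_eq_mul_left hcpos h5
      have h2 := hh _ hne
      have h3 := Subgroup.card_mul_index (extCentralizer x)
      have h4 : Nat.card (extCentralizer x) * h ≤ Nat.card G := by
        rw [← h3]
        exact Nat.mul_le_mul_left _ h2
      rw [hcard] at h4
      nlinarith
    · rw [(S0238.result x).2.1 hreal]
      simp
  -- counts
  have hm : (Finset.univ.filter (fun x : G => orderOf x = 2)).card =
      Nat.card {t : G // orderOf t = 2} := by
    rw [Nat.card_eq_fintype_card, Fintype.card_subtype]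
  have hpart : (Finset.univ.filter (fun x : G => x ≠ 1 ∧ orderOf x ≠ 2)).card + 1 +
      Nat.card {t : G // orderOf t = 2} = Nat.card G := by
    rw [← hm, Nat.card_eq_fintype_card, ← Finset.card_univ]
    have e1 : (Finset.univ : Finset G) = insert 1 ((Finset.univ.filter (fun x : G => x ≠ 1 ∧ orderOf x ≠ 2)) ∪
        (Finset.univ.filter (fun x : G => orderOf x = 2))) := by
      ext x
      simp only [Finset.mem_univ, Finset.mem_insert, Finset.mem_union, Finset.mem_filter, true_and,
        true_iff]
      by_cases hx1 : x = 1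
      · exact Or.inl hx1
      · by_cases hx2 : orderOf x = 2
        · exact Or.inr (Or.inr hx2)
        · exact Or.inr (Or.inl ⟨hx1, hx2⟩)
    have e2 : (Finset.univ : Finset G).card = (insert 1 ((Finset.univ.filter (fun x : G => x ≠ 1 ∧ orderOf x ≠ 2)) ∪
        (Finset.univ.filter (fun x : G => orderOf x = 2)))).card := congrArg Finset.card e1
    rw [e2, Finset.card_insert_of_notMem, Finset.card_union_of_disjoint]
    · ring
    · rw [Finset.disjoint_filter]
      intro x _ hx hx2
      exact hx.2 hx2
    · simp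
  -- the bound
  have hbound : ∀ x : G,
      2 * h * Nat.card {p : G × G // orderOf p.1 = 2 ∧ orderOf p.2 = 2 ∧ p.1 * p.2 = x} +
        (if orderOf x = 2 then 4 * h else 0) ≤
      (if x = 1 then 2 * h * Nat.card {t : G // orderOf t = 2} else 0) +
        (if orderOf x = 2 then 2 * Nat.card G else 0) +
        (if x ≠ 1 ∧ orderOf x ≠ 2 then Nat.card G else 0) := by
    intro x
    by_cases hx1 : x = 1
    · subst hx1
      rw [hone]
      simp
    · by_cases hx2 : orderOf x = 2
      · rw [if_pos hx2, if_neg hx1, if_pos hx2, if_neg (by tauto)]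
        have := hinv x hx2
        omega
      · rw [if_neg hx2, if_neg hx1, if_neg hx2, if_pos ⟨hx1, hx2⟩]
        have := hother x hx1 hx2
        omega
  have hS := Finset.sum_le_sum (fun x (_ : x ∈ (Finset.univ : Finset G)) => hbound x)
  rw [Finset.sum_add_distrib, Finset.sum_add_distrib, Finset.sum_add_distrib, ← Finset.mul_sum,
    hsum, Finset.sum_ite_eq' Finset.univ (1 : G), if_pos (Finset.mem_univ _),
    ← Finset.sum_filter, ← Finset.sum_filter, ← Finset.sum_filter, Finset.sum_const,
    Finset.sum_const, Finset.sum_const, hm, smul_eq_mul, smul_eq_mul, smul_eq_mul] at hS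
  generalize Nat.card {t : G // orderOf t = 2} = m at *
  generalize Nat.card G = N at *
  generalize (Finset.univ.filter (fun x : G => x ≠ 1 ∧ orderOf x ≠ 2)).card = c at *
  subst hpart
  nlinarith
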