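import Cfsg.Agent.Helper2.CharRep

set_option autoImplicit false
set_option linter.unusedSectionVars false

namespace Cfsg.Agent.Helper2

open Cfsg

universe u v

/-- Restriction of a representation to a subgroup. -/
def resRep {G : Type u} [Group G] {V : Type v} [AddCommGroup V] [Module ℂ V]
    (ρ : Representation ℂ G V) (H : Subgroup G) : Representation ℂ H V :=
  MonoidHom.comp ρ H.subtype

theorem resRep_apply {G : Type u} [Group G] {V : Type v} [AddCommGroup V] [Module ℂ V]
    (ρ : Representation ℂ G V) (H : Subgroup G) (h : H) : resRep ρ H h = ρ (h : G) := rfl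

theorem mem_invariants_resRep {G : Type u} [Group G] {V : Type v} [AddCommGroup V] [Module ℂ V]
    (ρ : Representation ℂ G V) (H : Subgroup G) (v : V) :
    v ∈ (resRep ρ H).invariants ↔ ∀ h ∈ H, ρ h v = v := by
  rw [Representation.mem_invariants]
  constructor
  · intro h x hx
    exact h ⟨x, hx⟩
  · intro h x
    exact h x x.2

/-- The multiplicity of the trivial character in the restriction of a character to a subgroup
`H` is the dimension of the space of `H`-invariants. -/
theorem classInner_restrict_one_eq_finrank {G : Type u} [Group G] {V : Type v} [AddCommGroup V]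
    [Module ℂ V] [FiniteDimensional ℂ V] (ρ : Representation ℂ G V) (H : Subgroup G) [Fintype H] :
    classInner (fun x : H => ρ.character x) (fun _ => 1) =
      (Module.finrank ℂ ((resRep ρ H).invariants) : ℂ) := by
  classical
  have hH0 : (Nat.card H : ℂ) ≠ 0 := by exact_mod_cast Nat.card_pos.ne'
  have hproj : LinearMap.IsProj (resRep ρ H).invariants
      ((Nat.card H : ℂ)⁻¹ • ∑ h : H, ρ (h : G)) := by
    refine ⟨fun v g => ?_, fun v hv => ?_⟩
    · show ρ (g : G) (((Nat.card H : ℂ)⁻¹ • ∑ h : H, ρ (h : G)) v) =
        ((Nat.card H : ℂ)⁻¹ • ∑ h : H, ρ (h : G)) v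
      simp only [LinearMap.smul_apply, LinearMap.sum_apply, map_smul, map_sum]
      congr 1
      refine Eq.trans ?_ (Equiv.sum_comp (Equiv.mulLeft g) (fun h : H => ρ (h : G) v))
      refine Finset.sum_congr rfl fun h _ => ?_
      simp [map_mul]
    · have : ∀ h : H, ρ (h : G) v = v := fun h => hv h
      simp only [LinearMap.smul_apply, LinearMap.sum_apply, this, Finset.sum_const,
        Finset.card_univ]
      rw [← Nat.card_eq_fintype_card, ← Nat.cast_smul_eq_nsmul ℂ, smul_smul, inv_mul_cancel₀ hH0,
        one_smul]
  have htr := hproj.trace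
  rw [← htr]
  unfold classInner
  simp only [map_smul, map_sum, smul_eq_mul, map_one, mul_one]
  rfl

end Cfsg.Agent.Helper2
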