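import Mathlib
import Cfsg.Prelude.Def_JordanBlocks
import Cfsg.Prelude.Def_Classical
import Cfsg.Prelude.Def_ClassicalGeometry
import Cfsg.Agent.S2585

/-! S2584 sprint, backward transport: from a symplectic matrix conjugate to the Jordan-type matrix
(the left-hand side of S2582) to an isometry of a quadratic form on `F^(2m)` with nondegenerate polar
form (the left-hand side of S2584), in characteristic 2, via S2585 (Dye) and reindexing along
`Fin m ⊕ Fin m ≃ Fin (2 * m)`. -/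

set_option autoImplicit false
open Matrix

namespace Cfsg.Agent.Helper2

theorem s2584_bwd {F : Type*} [Field F] [Fintype F] [CharP F 2] {m t : ℕ} (d : Fin t → ℕ)
    (h : ∃ e : ((k : Fin t) × Fin (d k)) ≃ (Fin m ⊕ Fin m), ∃ A : Matrix.symplecticGroup (Fin m) F,
      IsConj (Matrix.reindex e e (Cfsg.jordanTypeMatrix d F))
        (A : Matrix (Fin m ⊕ Fin m) (Fin m ⊕ Fin m) F)) :
    ∃ Q : QuadraticForm F (Fin (2 * m) → F), (QuadraticMap.polarBilin Q).Nondegenerate ∧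
      ∃ e : ((k : Fin t) × Fin (d k)) ≃ Fin (2 * m), ∃ A : ↥(Cfsg.isometryGroup F ⇑Q),
        IsConj (Matrix.reindex e e (Cfsg.jordanTypeMatrix d F))
          ((A : Matrix.GeneralLinearGroup (Fin (2 * m)) F) :
            Matrix (Fin (2 * m)) (Fin (2 * m)) F) := by
  classical
  obtain ⟨e, B, hconj⟩ := h
  obtain ⟨Q, hpol, hinv⟩ := Cfsg.Agent.S2585.result B
  obtain ⟨Bm, hBm⟩ : ∃ Bm : Matrix (Fin m ⊕ Fin m) (Fin m ⊕ Fin m) F,
      Bm = (B : Matrix (Fin m ⊕ Fin m) (Fin m ⊕ Fin m) F) := ⟨_, rfl⟩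
  rw [← hBm] at hconj hinv
  have hBdet : IsUnit Bm.det := by
    rw [hBm]; exact SymplecticGroup.symplectic_det B.2
  -- the reindexing
  let σ : Fin m ⊕ Fin m ≃ Fin (2 * m) := finSumFinEquiv.trans (finCongr (by omega))
  let L : (Fin (2 * m) → F) →ₗ[F] (Fin m ⊕ Fin m → F) := LinearMap.funLeft F F σ
  have hL : ∀ x : Fin (2 * m) → F, L x = x ∘ σ := fun x => rfl
  obtain ⟨Q', hQ'⟩ : ∃ Q' : QuadraticForm F (Fin (2 * m) → F), Q' = Q.comp L := ⟨_, rfl⟩
  have hQ'app : ∀ x, Q' x = Q (x ∘ σ) := by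
    intro x; rw [hQ']; rfl
  obtain ⟨A', hA'⟩ : ∃ A' : Matrix (Fin (2 * m)) (Fin (2 * m)) F, A' = Matrix.reindex σ σ Bm :=
    ⟨_, rfl⟩
  obtain ⟨J', hJ'⟩ : ∃ J' : Matrix (Fin (2 * m)) (Fin (2 * m)) F,
      J' = Matrix.reindex σ σ (Matrix.J (Fin m) F) := ⟨_, rfl⟩
  have hmv : ∀ (X : Matrix (Fin m ⊕ Fin m) (Fin m ⊕ Fin m) F) (u : Fin (2 * m) → F),
      (Matrix.reindex σ σ X *ᵥ u) ∘ σ = X *ᵥ (u ∘ σ) := by
    intro X u
    rw [Matrix.reindex_apply, Matrix.submatrix_mulVec_equiv]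
    funext i
    simp
  -- nondegeneracy
  have hpolar' : QuadraticMap.polarBilin Q' = Matrix.toBilin' J' := by
    refine LinearMap.ext fun u => LinearMap.ext fun w => ?_
    show QuadraticMap.polar Q' u w = _
    have h1 : QuadraticMap.polar (⇑Q') u w = QuadraticMap.polar (⇑Q) (u ∘ σ) (w ∘ σ) := by
      unfold QuadraticMap.polar
      rw [hQ'app, hQ'app, hQ'app]
      rfl
    rw [h1, hpol, Matrix.toBilin'_apply', Cfsg.sympForm, hJ']
    have h2 : Matrix.reindex σ σ (Matrix.J (Fin m) F) *ᵥ w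
        = (Matrix.J (Fin m) F *ᵥ (w ∘ σ)) ∘ σ.symm := by
      rw [← hmv]
      funext i
      simp
    rw [h2, dotProduct_comp_equiv_symm]
  have hJdet : J'.det ≠ 0 := by
    rw [hJ', Matrix.det_reindex_self]
    intro h0
    have := Matrix.J_det_mul_J_det (Fin m) F
    rw [h0, mul_zero] at this
    exact zero_ne_one this
  have hnd : (QuadraticMap.polarBilin Q').Nondegenerate := by
    rw [hpolar']
    apply Matrix.Nondegenerate.toBilin'
    exact Matrix.nondegenerate_of_det_ne_zero hJdet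
  -- the isometry
  have hA'det : IsUnit A'.det := by
    rw [hA', Matrix.det_reindex_self]; exact hBdet
  have hmem : (⟨A', A'⁻¹, Matrix.mul_nonsing_inv A' hA'det, Matrix.nonsing_inv_mul A' hA'det⟩ :
      Matrix.GeneralLinearGroup (Fin (2 * m)) F) ∈ Cfsg.isometryGroup F ⇑Q' := by
    intro u v
    show Q' (A' *ᵥ u) = Q' u
    rw [hQ'app, hQ'app, hA', hmv, hinv]
  -- conjugacy
  have hre : ∀ Z, Matrix.reindex σ σ Z = Matrix.reindexAlgEquiv F F σ Z :=
    fun Z => (Matrix.reindexAlgEquiv_apply F F σ Z).symm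
  have hconj' : IsConj (Matrix.reindex (e.trans σ) (e.trans σ) (Cfsg.jordanTypeMatrix d F)) A' := by
    have h1 := MonoidHom.map_isConj
      ((Matrix.reindexAlgEquiv F F σ).toRingEquiv.toMonoidHom) hconj
    have h2 : Matrix.reindex (e.trans σ) (e.trans σ) (Cfsg.jordanTypeMatrix d F)
        = Matrix.reindex σ σ (Matrix.reindex e e (Cfsg.jordanTypeMatrix d F)) := by
      ext i j
      rfl
    rw [h2, hA', hre, hre]
    exact h1
  exact ⟨Q', hnd, e.trans σ, ⟨_, hmem⟩, hconj'⟩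

end Cfsg.Agent.Helper2
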