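import Mathlib
import Cfsg.Agent.Helper2.Simple60

set_option autoImplicit false

namespace Cfsg.Agent.Helper2

/-- `G = H ∪ H g₀ H`. -/
def DCov {G : Type*} [Group G] (H : Subgroup G) (g₀ : G) : Prop :=
  ∀ g, g ∉ H → ∃ h₁ ∈ H, ∃ h₂ ∈ H, g = h₁ * g₀ * h₂

theorem dcov_aux {G : Type*} [Group G] (H : Subgroup G) (g₀ : G) (h : DCov H g₀)
    (a b : G ⧸ H) (hab : a ≠ b) :
    ∃ g : G, g • a = ((1 : G) : G ⧸ H) ∧ g • b = ((g₀ : G) : G ⧸ H) := by
  induction a using QuotientGroup.induction_on with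
  | H x =>
    induction b using QuotientGroup.induction_on with
    | H y =>
      have hxy : x⁻¹ * y ∉ H := fun hc => hab (QuotientGroup.eq.mpr hc)
      obtain ⟨h₁, hh₁, h₂, hh₂, he⟩ := h _ hxy
      refine ⟨h₁⁻¹ * x⁻¹, ?_, ?_⟩
      · change (((h₁⁻¹ * x⁻¹) * x : G) : G ⧸ H) = ((1 : G) : G ⧸ H)
        rw [QuotientGroup.eq]
        have : (h₁⁻¹ * x⁻¹ * x)⁻¹ * 1 = h₁ := by group
        rw [this]; exact hh₁
      · change (((h₁⁻¹ * x⁻¹) * y : G) : G ⧸ H) = ((g₀ : G) : G ⧸ H)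
        rw [QuotientGroup.eq]
        have : (h₁⁻¹ * x⁻¹ * y)⁻¹ * g₀ = h₂⁻¹ := by
          have : h₁⁻¹ * x⁻¹ * y = g₀ * h₂ := by
            rw [mul_assoc, he]; group
          rw [this]; group
        rw [this]; exact H.inv_mem hh₂

theorem two_trans_of_dcov {G : Type*} [Group G] (H : Subgroup G) (g₀ : G) (h : DCov H g₀) :
    MulAction.IsMultiplyPretransitive G (G ⧸ H) 2 := by
  rw [MulAction.is_two_pretransitive_iff]
  intro a b c d hab hcd
  obtain ⟨g₁, h1, h2⟩ := dcov_aux H g₀ h a b hab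
  obtain ⟨g₂, h3, h4⟩ := dcov_aux H g₀ h c d hcd
  refine ⟨g₂⁻¹ * g₁, ?_, ?_⟩
  · rw [mul_smul, h1, ← h3, inv_smul_smul]
  · rw [mul_smul, h2, ← h4, inv_smul_smul]

theorem dcov_map {G G' : Type*} [Group G] [Group G'] (f : G →* G') (hf : Function.Surjective f)
    (H : Subgroup G) (g₀ : G) (h : DCov H g₀) : DCov (H.map f) (f g₀) := by
  intro g' hg'
  obtain ⟨g, rfl⟩ := hf g'
  have hg : g ∉ H := fun hc => hg' (Subgroup.mem_map_of_mem f hc)
  obtain ⟨h₁, hh₁, h₂, hh₂, he⟩ := h g hg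
  exact ⟨f h₁, Subgroup.mem_map_of_mem f hh₁, f h₂, Subgroup.mem_map_of_mem f hh₂, by
    rw [he, map_mul, map_mul]⟩

theorem dcov_of_card {G : Type*} [Group G] [Finite G] (H : Subgroup G) (g₀ : G) (hg₀ : g₀ ∉ H)
    (n : ℕ) (hstab : Nat.card {h : G // h ∈ H ∧ ∃ y ∈ H, h * g₀ = g₀ * y} ≤ n)
    (hcard : (H.index - 1) * n ≤ Nat.card H) : DCov H g₀ := by
  classical
  set x₀ : G ⧸ H := ((g₀ : G) : G ⧸ H) with hx₀
  have h1 : (MulAction.stabilizer H x₀).index * Nat.card (MulAction.stabilizer H x₀) = Nat.card H :=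
    Subgroup.index_mul_card _
  rw [MulAction.index_stabilizer] at h1
  have h2 : Nat.card (MulAction.stabilizer H x₀) ≤ n := by
    refine le_trans ?_ hstab
    refine Nat.card_le_card_of_injective
      (fun s => ⟨((s : H) : G), (s : H).2, ?_⟩) ?_
    · have hs := s.2
      rw [MulAction.mem_stabilizer_iff] at hs
      have hs' : ((((s : H) : G) * g₀ : G) : G ⧸ H) = ((g₀ : G) : G ⧸ H) := hs
      rw [QuotientGroup.eq] at hs'
      refine ⟨((((s : H) : G) * g₀)⁻¹ * g₀)⁻¹, H.inv_mem hs', ?_⟩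
      group
    · intro s t hst
      simp only [Subtype.mk.injEq] at hst
      exact Subtype.ext (Subtype.ext hst)
  have hpos : 0 < Nat.card (MulAction.stabilizer H x₀) := Nat.card_pos
  have h3 : H.index - 1 ≤ (MulAction.orbit H x₀).ncard := by
    have : (H.index - 1) * Nat.card (MulAction.stabilizer H x₀) ≤
        (MulAction.orbit H x₀).ncard * Nat.card (MulAction.stabilizer H x₀) := by
      rw [h1]
      exact le_trans (Nat.mul_le_mul_left _ h2) hcard
    exact Nat.le_of_mul_le_mul_right this hpos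
  have h4 : MulAction.orbit H x₀ ⊆ ({((1 : G) : G ⧸ H)} : Set (G ⧸ H))ᶜ := by
    rintro _ ⟨s, rfl⟩ hc
    have hc' : ((((s : H) : G) * g₀ : G) : G ⧸ H) = ((1 : G) : G ⧸ H) := hc
    rw [QuotientGroup.eq] at hc'
    apply hg₀
    have : g₀ = (s : G)⁻¹ * (((s : G) * g₀)⁻¹ * 1)⁻¹ := by group
    rw [this]
    exact H.mul_mem (H.inv_mem s.2) (H.inv_mem hc')
  have h5 : (({((1 : G) : G ⧸ H)} : Set (G ⧸ H))ᶜ).ncard = H.index - 1 := by
    rw [Set.ncard_compl, Set.ncard_singleton]; rfl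
  have h6 : MulAction.orbit H x₀ = ({((1 : G) : G ⧸ H)} : Set (G ⧸ H))ᶜ :=
    Set.eq_of_subset_of_ncard_le h4 (by rw [h5]; exact h3) (Set.toFinite _)
  intro g hg
  have hg1 : ((g : G) : G ⧸ H) ∈ ({((1 : G) : G ⧸ H)} : Set (G ⧸ H))ᶜ := by
    intro hc
    have hc' : ((g : G) : G ⧸ H) = ((1 : G) : G ⧸ H) := hc
    rw [QuotientGroup.eq] at hc'
    apply hg
    have : g = (g⁻¹ * 1)⁻¹ := by group
    rw [this]; exact H.inv_mem hc'
  rw [← h6] at hg1
  obtain ⟨s, hs⟩ := hg1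
  have hs' : ((((s : H) : G) * g₀ : G) : G ⧸ H) = ((g : G) : G ⧸ H) := hs
  rw [QuotientGroup.eq] at hs'
  exact ⟨(s : G), s.2, _, hs', by group⟩

/-- A₅ from a coset action of degree 5. -/
theorem iso_alt_of_coset_action {G : Type*} [Group G] [Finite G] (Z Q H : Subgroup G) [Z.Normal]
    (hZQ : Z ≤ Q) (hQH : Q ≤ H)
    (hcore : ∀ x ∈ Q, (∀ h ∈ H, h⁻¹ * x * h ∈ Q) → x ∈ Z)
    (hidx : Nat.card H = 5 * Nat.card Q) (hH : Nat.card H = 60 * Nat.card Z) :
    Nonempty (H.map (QuotientGroup.mk' Z) ≃* alternatingGroup (Fin 5)) := by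
  classical
  have hZH : Z ≤ H := hZQ.trans hQH
  let ψ : H →* Equiv.Perm (H ⧸ Q.subgroupOf H) := MulAction.toPermHom H (H ⧸ Q.subgroupOf H)
  have hker : ψ.ker = Z.subgroupOf H := by
    rw [← Subgroup.normalCore_eq_ker]
    apply le_antisymm
    · intro x hx
      rw [Subgroup.mem_subgroupOf]
      apply hcore
      · have := hx 1
        simpa [Subgroup.mem_subgroupOf] using this
      · intro h hh
        have := hx (⟨h, hh⟩⁻¹)
        simpa [Subgroup.mem_subgroupOf] using this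
    · rw [Subgroup.normal_le_normalCore]
      intro x hx
      rw [Subgroup.mem_subgroupOf] at hx ⊢
      exact hZQ hx
  have hcZ : Nat.card (Z.subgroupOf H) = Nat.card Z :=
    Nat.card_congr (Subgroup.subgroupOfEquivOfLe hZH).toEquiv
  have hcQ : Nat.card (Q.subgroupOf H) = Nat.card Q :=
    Nat.card_congr (Subgroup.subgroupOfEquivOfLe hQH).toEquiv
  have hZpos : 0 < Nat.card Z := Nat.card_pos
  have hQpos : 0 < Nat.card Q := Nat.card_pos
  haveI : Fintype (H ⧸ Q.subgroupOf H) := Fintype.ofFinite _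
  have hX : Fintype.card (H ⧸ Q.subgroupOf H) = 5 := by
    rw [← Nat.card_eq_fintype_card]
    have h1 := Subgroup.index_mul_card (Q.subgroupOf H)
    rw [hcQ, hidx] at h1
    exact Nat.eq_of_mul_eq_mul_right hQpos h1
  have hcq : 2 * Nat.card (H ⧸ ψ.ker) = Nat.factorial 5 := by
    have h1 := Subgroup.index_mul_card ψ.ker
    rw [hker, hcZ, hH] at h1
    have h2 : (Z.subgroupOf H).index = 60 := Nat.eq_of_mul_eq_mul_right hZpos h1
    have h3 : Nat.card (H ⧸ ψ.ker) = 60 := by rw [hker]; exact h2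
    rw [h3]; rfl
  obtain ⟨e⟩ := equiv_alt_of_injective_perm (QuotientGroup.kerLift ψ)
    (QuotientGroup.kerLift_injective ψ) 5 hX hcq
  let φ : H →* G ⧸ Z := (QuotientGroup.mk' Z).comp H.subtype
  have hφker : φ.ker = ψ.ker := by
    rw [hker]
    ext x
    rw [MonoidHom.mem_ker, Subgroup.mem_subgroupOf]
    change (QuotientGroup.mk' Z) (x : G) = 1 ↔ _
    rw [QuotientGroup.mk'_apply, QuotientGroup.eq_one_iff]
  have hφrange : φ.range = H.map (QuotientGroup.mk' Z) := by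
    rw [MonoidHom.range_comp, Subgroup.range_subtype]
  exact ⟨((MulEquiv.subgroupCongr hφrange).symm.trans
    (QuotientGroup.quotientKerEquivRange φ).symm).trans
    ((QuotientGroup.quotientMulEquivOfEq hφker).trans e)⟩

end Cfsg.Agent.Helper2
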