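import Mathlib
import Cfsg.Agent.Helper2.PSL11a
import Cfsg.Agent.Helper2.PSLPerm
import Cfsg.Agent.Helper2.LinGroups2
import Cfsg.Agent.Helper2.ExcIso

set_option autoImplicit false

namespace Cfsg.Agent.Helper2

/-- Codes of 2x2 matrices mod 11. -/
abbrev Q11 := ℕ × ℕ × ℕ × ℕ

def q11mul (x y : Q11) : Q11 :=
  ((x.1 * y.1 + x.2.1 * y.2.2.1) % 11, (x.1 * y.2.1 + x.2.1 * y.2.2.2) % 11,
   (x.2.2.1 * y.1 + x.2.2.2 * y.2.2.1) % 11, (x.2.2.1 * y.2.1 + x.2.2.2 * y.2.2.2) % 11)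

def q11mat (x : Q11) : Matrix (Fin 2) (Fin 2) (ZMod 11) :=
  !![(x.1 : ZMod 11), (x.2.1 : ZMod 11); (x.2.2.1 : ZMod 11), (x.2.2.2 : ZMod 11)]

def q11red (x : Q11) : Prop := x.1 < 11 ∧ x.2.1 < 11 ∧ x.2.2.1 < 11 ∧ x.2.2.2 < 11

def q11ok (x : Q11) : Bool :=
  decide (x.1 < 11) && decide (x.2.1 < 11) && decide (x.2.2.1 < 11) && decide (x.2.2.2 < 11) &&
    ((x.1 * x.2.2.2) % 11 == (x.2.1 * x.2.2.1 + 1) % 11)

theorem q11mat_mul (x y : Q11) : q11mat (q11mul x y) = q11mat x * q11mat y := by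
  obtain ⟨a, b, c, d⟩ := x
  obtain ⟨e, f, g, h⟩ := y
  simp only [q11mat, q11mul, Matrix.mul_fin_two, ZMod.natCast_mod]
  push_cast
  rfl

theorem q11mul_red (x y : Q11) : q11red (q11mul x y) := by
  refine ⟨?_, ?_, ?_, ?_⟩ <;> exact Nat.mod_lt _ (by norm_num)

theorem q11ok_red {x : Q11} (h : q11ok x = true) : q11red x := by
  simp only [q11ok, Bool.and_eq_true, decide_eq_true_eq] at h
  exact ⟨h.1.1.1.1, h.1.1.1.2, h.1.1.2, h.1.2⟩

theorem q11ok_det {x : Q11} (h : q11ok x = true) : (q11mat x).det = 1 := by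
  simp only [q11ok, Bool.and_eq_true, decide_eq_true_eq, beq_iff_eq] at h
  obtain ⟨a, b, c, d⟩ := x
  have h2 := h.2
  simp only at h2
  have h3 : (((a * d : ℕ)) : ZMod 11) = ((b * c + 1 : ℕ) : ZMod 11) :=
    (ZMod.natCast_eq_natCast_iff' _ _ _).mpr h2
  push_cast at h3
  simp only [q11mat, Matrix.det_fin_two_of]
  rw [h3]; ring

theorem q11mat_inj {x y : Q11} (hx : q11red x) (hy : q11red y) (h : q11mat x = q11mat y) :
    x = y := by
  obtain ⟨a, b, c, d⟩ := x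
  obtain ⟨e, f, g, k⟩ := y
  obtain ⟨ha, hb, hc, hd⟩ := hx
  obtain ⟨he, hf, hg, hk⟩ := hy
  simp only at ha hb hc hd he hf hg hk
  have h00 := congrFun (congrFun h 0) 0
  have h01 := congrFun (congrFun h 0) 1
  have h10 := congrFun (congrFun h 1) 0
  have h11 := congrFun (congrFun h 1) 1
  simp only [q11mat, Matrix.of_apply, Matrix.cons_val_zero, Matrix.cons_val_one,
    Matrix.cons_val', Matrix.cons_val_fin_one] at h00 h01 h10 h11
  rw [ZMod.natCast_eq_natCast_iff'] at h00 h01 h10 h11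
  rw [Nat.mod_eq_of_lt ha, Nat.mod_eq_of_lt he] at h00
  rw [Nat.mod_eq_of_lt hb, Nat.mod_eq_of_lt hf] at h01
  rw [Nat.mod_eq_of_lt hc, Nat.mod_eq_of_lt hg] at h10
  rw [Nat.mod_eq_of_lt hd, Nat.mod_eq_of_lt hk] at h11
  subst h00 h01 h10 h11
  rfl

instance fact_prime_eleven : Fact (Nat.Prime 11) := ⟨by norm_num⟩

theorem q11mat_one : q11mat (1, 0, 0, 1) = 1 := by
  simp [q11mat, Matrix.one_fin_two]

/-- The subgroup of `SL₂(11)` given by a list of codes closed under multiplication. -/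
def q11sub (L : List Q11) (h1 : (1, 0, 0, 1) ∈ L) (hmul : ∀ x ∈ L, ∀ y ∈ L, q11mul x y ∈ L)
    (hinv : ∀ x ∈ L, ∃ y ∈ L, q11mul x y = (1, 0, 0, 1)) :
    Subgroup (Matrix.SpecialLinearGroup (Fin 2) (ZMod 11)) where
  carrier := {g | ∃ x ∈ L, q11mat x = g.1}
  mul_mem' := by
    rintro g h ⟨x, hx, hxg⟩ ⟨y, hy, hyh⟩
    refine ⟨q11mul x y, hmul x hx y hy, ?_⟩
    rw [q11mat_mul, hxg, hyh]; rfl
  one_mem' := ⟨(1, 0, 0, 1), h1, q11mat_one⟩
  inv_mem' := by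
    rintro g ⟨x, hx, hxg⟩
    obtain ⟨y, hy, hxy⟩ := hinv x hx
    refine ⟨y, hy, ?_⟩
    have h2 : q11mat x * q11mat y = 1 := by rw [← q11mat_mul, hxy, q11mat_one]
    rw [hxg] at h2
    have h3 : (g⁻¹ : Matrix.SpecialLinearGroup (Fin 2) (ZMod 11)).1 * g.1 = 1 := by
      rw [← Matrix.SpecialLinearGroup.coe_mul, inv_mul_cancel]; rfl
    calc q11mat y = ((g⁻¹ : Matrix.SpecialLinearGroup (Fin 2) (ZMod 11)).1 * g.1) * q11mat y := by
          rw [h3, one_mul]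
      _ = (g⁻¹ : Matrix.SpecialLinearGroup (Fin 2) (ZMod 11)).1 := by
          rw [mul_assoc, h2, mul_one]

theorem mem_q11sub {L : List Q11} {h1 : (1, 0, 0, 1) ∈ L}
    {hmul : ∀ x ∈ L, ∀ y ∈ L, q11mul x y ∈ L}
    {hinv : ∀ x ∈ L, ∃ y ∈ L, q11mul x y = (1, 0, 0, 1)}
    {g : Matrix.SpecialLinearGroup (Fin 2) (ZMod 11)} :
    g ∈ q11sub L h1 hmul hinv ↔ ∃ x ∈ L, q11mat x = g.1 := Iff.rfl

theorem card_q11sub (L : List Q11) (h1 : (1, 0, 0, 1) ∈ L)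
    (hmul : ∀ x ∈ L, ∀ y ∈ L, q11mul x y ∈ L)
    (hinv : ∀ x ∈ L, ∃ y ∈ L, q11mul x y = (1, 0, 0, 1))
    (hok : ∀ x ∈ L, q11ok x = true) (hnd : L.Nodup) :
    Nat.card (q11sub L h1 hmul hinv) = L.length := by
  let f : Fin L.length → q11sub L h1 hmul hinv := fun i =>
    ⟨⟨q11mat (L.get i), q11ok_det (hok _ (List.get_mem L i))⟩, ⟨L.get i, List.get_mem L i, rfl⟩⟩
  have hf : Function.Bijective f := by
    constructor
    · intro i j hij
      have h2 : q11mat (L.get i) = q11mat (L.get j) := by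
        have := congrArg (fun s : q11sub L h1 hmul hinv => (s.1).1) hij
        exact this
      have h3 := q11mat_inj (q11ok_red (hok _ (List.get_mem L i)))
        (q11ok_red (hok _ (List.get_mem L j))) h2
      exact (List.Nodup.get_inj_iff hnd).mp h3
    · rintro ⟨g, x, hx, hxg⟩
      obtain ⟨i, hi⟩ := List.mem_iff_get.mp hx
      refine ⟨i, ?_⟩
      apply Subtype.ext
      apply Subtype.ext
      change q11mat (L.get i) = g.1
      rw [hi, hxg]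
  rw [← Nat.card_congr (Equiv.ofBijective f hf), Nat.card_fin]

/-- Counting via codes. -/
theorem card_le_of_codes {α : Type*} (L : List Q11) (S : Set α) (ι : Q11 → α)
    (h : ∀ s ∈ S, ∃ x ∈ L, ι x = s) : Nat.card S ≤ L.length := by
  classical
  have hch : ∀ s : S, ∃ i : Fin L.length, ι (L.get i) = s.1 := by
    intro s
    obtain ⟨x, hx, hxs⟩ := h s.1 s.2
    obtain ⟨i, hi⟩ := List.mem_iff_get.mp hx
    exact ⟨i, by rw [hi, hxs]⟩
  choose f hf using hch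
  have hinj : Function.Injective f := by
    intro s t hst
    apply Subtype.ext
    rw [← hf s, ← hf t, hst]
  have := Nat.card_le_card_of_injective f hinj
  rwa [Nat.card_fin] at this

def psl11H : List Q11 := [
  (0, 1, 10, 0), (0, 2, 5, 4), (0, 3, 7, 1), (0, 4, 8, 10), (0, 5, 2, 4), (0, 6, 9, 7),
  (0, 7, 3, 1), (0, 8, 4, 10), (0, 9, 6, 7), (0, 10, 1, 0), (1, 0, 0, 1), (1, 1, 9, 10),
  (1, 2, 3, 7), (1, 3, 2, 7), (1, 4, 8, 0), (1, 5, 6, 9), (1, 6, 5, 9), (1, 7, 7, 6),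
  (1, 8, 4, 0), (1, 9, 1, 10), (1, 10, 10, 2), (2, 0, 4, 6), (2, 1, 1, 1), (2, 2, 3, 9),
  (2, 3, 2, 9), (2, 4, 0, 6), (2, 5, 6, 10), (2, 6, 5, 10), (2, 7, 10, 8), (2, 8, 8, 5),
  (2, 9, 9, 8), (2, 10, 7, 8), (3, 0, 1, 4), (3, 1, 0, 4), (3, 2, 6, 8), (3, 3, 4, 8),
  (3, 4, 3, 8), (3, 5, 5, 5), (3, 6, 2, 8), (3, 7, 10, 9), (3, 8, 8, 7), (3, 9, 9, 9),
  (3, 10, 7, 9), (4, 0, 10, 3), (4, 1, 5, 7), (4, 2, 3, 10), (4, 3, 2, 10), (4, 4, 4, 7),
  (4, 5, 1, 7), (4, 6, 9, 0), (4, 7, 7, 7), (4, 8, 8, 8), (4, 9, 6, 0), (4, 10, 0, 3),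
  (5, 0, 4, 9), (5, 1, 2, 5), (5, 2, 1, 5), (5, 3, 3, 2), (5, 4, 0, 9), (5, 5, 8, 6),
  (5, 6, 6, 3), (5, 7, 7, 10), (5, 8, 5, 6), (5, 9, 10, 5), (5, 10, 9, 5), (6, 0, 7, 2),
  (6, 1, 2, 6), (6, 2, 1, 6), (6, 3, 6, 5), (6, 4, 4, 1), (6, 5, 5, 8), (6, 6, 3, 5),
  (6, 7, 0, 2), (6, 8, 8, 9), (6, 9, 10, 6), (6, 10, 9, 6), (7, 0, 1, 8), (7, 1, 0, 8),
  (7, 2, 5, 0), (7, 3, 3, 3), (7, 4, 4, 4), (7, 5, 2, 0), (7, 6, 10, 4), (7, 7, 7, 4),
  (7, 8, 9, 1), (7, 9, 8, 1), (7, 10, 6, 4), (8, 0, 10, 7), (8, 1, 4, 2), (8, 2, 2, 2),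
  (8, 3, 3, 4), (8, 4, 1, 2), (8, 5, 9, 3), (8, 6, 6, 6), (8, 7, 8, 3), (8, 8, 7, 3),
  (8, 9, 5, 3), (8, 10, 0, 7), (9, 0, 7, 5), (9, 1, 4, 3), (9, 2, 2, 3), (9, 3, 3, 6),
  (9, 4, 1, 3), (9, 5, 6, 1), (9, 6, 5, 1), (9, 7, 0, 5), (9, 8, 9, 2), (9, 9, 8, 2),
  (9, 10, 10, 10), (10, 0, 0, 10), (10, 1, 1, 9), (10, 2, 10, 1), (10, 3, 7, 0), (10, 4, 4, 5),
  (10, 5, 6, 2), (10, 6, 5, 2), (10, 7, 3, 0), (10, 8, 9, 4), (10, 9, 8, 4), (10, 10, 2, 1)]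

def psl11Q : List Q11 := [
  (0, 1, 10, 0), (0, 10, 1, 0), (1, 0, 0, 1), (1, 5, 6, 9), (1, 6, 5, 9), (2, 5, 6, 10),
  (2, 6, 5, 10), (4, 4, 4, 7), (4, 7, 7, 7), (5, 1, 2, 5), (5, 2, 1, 5), (5, 9, 10, 5),
  (5, 10, 9, 5), (6, 1, 2, 6), (6, 2, 1, 6), (6, 9, 10, 6), (6, 10, 9, 6), (7, 4, 4, 4),
  (7, 7, 7, 4), (9, 5, 6, 1), (9, 6, 5, 1), (10, 0, 0, 10), (10, 5, 6, 2), (10, 6, 5, 2)]

def psl11g0 : Q11 := (0, 1, 10, 1)
def psl11g1 : Q11 := (0, 2, 5, 4)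
def psl11g2 : Q11 := (0, 3, 7, 1)

theorem psl11H_mul : psl11H.all (fun x => psl11H.all (fun y => psl11H.contains (q11mul x y))) = true := by
  decide +kernel

theorem psl11H_inv : psl11H.all (fun x => psl11H.any (fun y => q11mul x y == (1, 0, 0, 1))) = true := by
  decide +kernel

theorem psl11H_ok : psl11H.all q11ok = true := by decide +kernel

theorem psl11H_nodup : psl11H.Nodup := by decide +kernel

theorem psl11H_length : psl11H.length = 120 := by decide +kernel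

theorem psl11Q_mul : psl11Q.all (fun x => psl11Q.all (fun y => psl11Q.contains (q11mul x y))) = true := by
  decide +kernel

theorem psl11Q_inv : psl11Q.all (fun x => psl11Q.any (fun y => q11mul x y == (1, 0, 0, 1))) = true := by
  decide +kernel

theorem psl11Q_ok : psl11Q.all q11ok = true := by decide +kernel

theorem psl11Q_nodup : psl11Q.Nodup := by decide +kernel

theorem psl11Q_length : psl11Q.length = 24 := by decide +kernel

theorem psl11Q_sub : psl11Q.all (fun x => psl11H.contains x) = true := by decide +kernel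

theorem psl11g0_not_mem : psl11H.contains psl11g0 = false := by decide +kernel

theorem psl11g0_ok : q11ok psl11g0 = true := by decide +kernel

theorem psl11g1_mem : psl11H.contains psl11g1 = true := by decide +kernel

theorem psl11g2_mem : psl11H.contains psl11g2 = true := by decide +kernel

theorem psl11_stab : (psl11H.filter (fun x => psl11H.any
    (fun y => q11mul x psl11g0 == q11mul psl11g0 y))).length = 12 := by decide +kernel

theorem psl11_core : psl11Q.all (fun x =>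
    !(psl11Q.any (fun y => q11mul x psl11g1 == q11mul psl11g1 y) &&
      psl11Q.any (fun y => q11mul x psl11g2 == q11mul psl11g2 y)) ||
    (x == (1, 0, 0, 1) || x == (10, 0, 0, 10))) = true := by decide +kernel

end Cfsg.Agent.Helper2
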