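import Mathlib
import Cfsg.Agent.Helper2.PSL11
import Cfsg.Agent.Helper2.PSL11a
import Cfsg.Agent.Helper2.LinGroups2
import Cfsg.Agent.Helper2.PSLPerm

set_option autoImplicit false

namespace Cfsg.Agent.Helper2

open Matrix

/-! Nat-coded `SL₂(11)`: the matrix `!![a, b; c, d]` has code `a + 11 b + 121 c + 1331 d`. -/

abbrev M11G := Matrix.SpecialLinearGroup (Fin 2) (ZMod 11)

def m11dg (n t : ℕ) : ℕ := Nat.mod (Nat.div n t) 11

def m11mul (n m : ℕ) : ℕ :=
  Nat.add (Nat.mod (Nat.add (Nat.mul (m11dg n 1) (m11dg m 1)) (Nat.mul (m11dg n 11) (m11dg m 121))) 11)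
    (Nat.add (Nat.mul 11 (Nat.mod (Nat.add (Nat.mul (m11dg n 1) (m11dg m 11))
        (Nat.mul (m11dg n 11) (m11dg m 1331))) 11))
      (Nat.add (Nat.mul 121 (Nat.mod (Nat.add (Nat.mul (m11dg n 121) (m11dg m 1))
          (Nat.mul (m11dg n 1331) (m11dg m 121))) 11))
        (Nat.mul 1331 (Nat.mod (Nat.add (Nat.mul (m11dg n 121) (m11dg m 11))
          (Nat.mul (m11dg n 1331) (m11dg m 1331))) 11))))

def m11inv (n : ℕ) : ℕ :=
  Nat.add (m11dg n 1331) (Nat.add (Nat.mul 11 (Nat.mod (Nat.sub 11 (m11dg n 11)) 11))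
    (Nat.add (Nat.mul 121 (Nat.mod (Nat.sub 11 (m11dg n 121)) 11)) (Nat.mul 1331 (m11dg n 1))))

def m11valid (n : ℕ) : Bool :=
  Nat.beq (Nat.mod (Nat.add (Nat.mul (m11dg n 1) (m11dg n 1331))
    (Nat.mul 10 (Nat.mul (m11dg n 11) (m11dg n 121)))) 11) 1

def m11bit (B n : ℕ) : Bool := Nat.beq (Nat.mod (Nat.div B (Nat.pow 2 n)) 2) 1

def m11mem (n : ℕ) : List ℕ → Bool
  | [] => false
  | k :: l => cond (Nat.beq n k) true (m11mem n l)

def m11inZ (n : ℕ) : Bool := Nat.beq n 1332 || Nat.beq n 13320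

def m11all (P : ℕ → Bool) : ℕ → Bool
  | 0 => true
  | n + 1 => P n && m11all P n

def m11inc : ℕ → List ℕ → Bool
  | _, [] => true
  | m, k :: l => Nat.blt m k && m11inc k l

/-- Conjugation `r n r⁻¹` on codes. -/
def m11cj (r n : ℕ) : ℕ := m11mul (m11mul r n) (m11inv r)

theorem m11all_spec (P : ℕ → Bool) : ∀ N : ℕ, m11all P N = true → ∀ n < N, P n = true := by
  intro N
  induction N with
  | zero => intro _ n hn; exact absurd hn (Nat.not_lt_zero n)
  | succ N ih =>
    intro h n hn
    have h' : (P N && m11all P N) = true := h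
    rw [Bool.and_eq_true] at h'
    rcases Nat.lt_succ_iff_lt_or_eq.mp hn with hlt | rfl
    · exact ih h'.2 n hlt
    · exact h'.1

theorem m11mem_spec (n : ℕ) : ∀ L : List ℕ, m11mem n L = true → n ∈ L := by
  intro L
  induction L with
  | nil => intro h; exact absurd h (by simp [m11mem])
  | cons k l ih =>
    intro h
    have h' : cond (Nat.beq n k) true (m11mem n l) = true := h
    cases hb : Nat.beq n k with
    | true => rw [Nat.eq_of_beq_eq_true hb]; exact List.mem_cons_self
    | false =>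
      rw [hb] at h'
      exact List.mem_cons_of_mem _ (ih h')

theorem m11inc_spec : ∀ (L : List ℕ) (m : ℕ), m11inc m L = true →
    L.Pairwise (· < ·) ∧ ∀ k ∈ L, m < k := by
  intro L
  induction L with
  | nil => intro m _; exact ⟨List.Pairwise.nil, by simp⟩
  | cons k l ih =>
    intro m h
    have h' : (Nat.blt m k && m11inc k l) = true := h
    rw [Bool.and_eq_true] at h'
    have hmk : m < k := Nat.le_of_ble_eq_true h'.1
    obtain ⟨g1, g2⟩ := ih k h'.2
    refine ⟨List.pairwise_cons.mpr ⟨g2, g1⟩, ?_⟩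
    intro j hj
    rcases List.mem_cons.mp hj with rfl | hj
    · exact hmk
    · exact lt_trans hmk (g2 j hj)

theorem m11inZ_iff (n : ℕ) : m11inZ n = true ↔ n = 1332 ∨ n = 13320 := by
  unfold m11inZ
  rw [Bool.or_eq_true]
  constructor
  · rintro (h | h)
    · exact Or.inl (Nat.eq_of_beq_eq_true h)
    · exact Or.inr (Nat.eq_of_beq_eq_true h)
  · rintro (rfl | rfl)
    · exact Or.inl rfl
    · exact Or.inr rfl

/-- The code of an element of `SL₂(11)`. -/
def m11code (g : M11G) : ℕ :=
  (g.1 0 0).val + 11 * (g.1 0 1).val + 121 * (g.1 1 0).val + 1331 * (g.1 1 1).val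

theorem m11pack_dg (a b c d : ℕ) (ha : a < 11) (hb : b < 11) (hc : c < 11) (hd : d < 11) :
    m11dg (a + 11 * b + 121 * c + 1331 * d) 1 = a ∧ m11dg (a + 11 * b + 121 * c + 1331 * d) 11 = b ∧
    m11dg (a + 11 * b + 121 * c + 1331 * d) 121 = c ∧
    m11dg (a + 11 * b + 121 * c + 1331 * d) 1331 = d := by
  refine ⟨?_, ?_, ?_, ?_⟩
  · show (a + 11 * b + 121 * c + 1331 * d) / 1 % 11 = a
    omega
  · show (a + 11 * b + 121 * c + 1331 * d) / 11 % 11 = b
    omega
  · show (a + 11 * b + 121 * c + 1331 * d) / 121 % 11 = c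
    omega
  · show (a + 11 * b + 121 * c + 1331 * d) / 1331 % 11 = d
    omega

theorem m11dg_lt (n t : ℕ) : m11dg n t < 11 := Nat.mod_lt _ (by norm_num)

theorem m11pack_of_lt (n : ℕ) (hn : n < 14641) :
    n = m11dg n 1 + 11 * m11dg n 11 + 121 * m11dg n 121 + 1331 * m11dg n 1331 := by
  show n = n / 1 % 11 + 11 * (n / 11 % 11) + 121 * (n / 121 % 11) + 1331 * (n / 1331 % 11)
  omega

theorem m11code_dg (g : M11G) :
    m11dg (m11code g) 1 = (g.1 0 0).val ∧ m11dg (m11code g) 11 = (g.1 0 1).val ∧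
    m11dg (m11code g) 121 = (g.1 1 0).val ∧ m11dg (m11code g) 1331 = (g.1 1 1).val :=
  m11pack_dg _ _ _ _ (ZMod.val_lt _) (ZMod.val_lt _) (ZMod.val_lt _) (ZMod.val_lt _)

theorem m11code_lt (g : M11G) : m11code g < 14641 := by
  unfold m11code
  have h1 := ZMod.val_lt (g.1 0 0)
  have h2 := ZMod.val_lt (g.1 0 1)
  have h3 := ZMod.val_lt (g.1 1 0)
  have h4 := ZMod.val_lt (g.1 1 1)
  omega

theorem m11code_valid (g : M11G) : m11valid (m11code g) = true := by
  obtain ⟨h1, h2, h3, h4⟩ := m11code_dg g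
  unfold m11valid
  rw [h1, h2, h3, h4]
  have hdet : g.1 0 0 * g.1 1 1 - g.1 0 1 * g.1 1 0 = 1 := by
    have h := g.2
    rw [Matrix.det_fin_two] at h
    exact h
  have h6 : (((g.1 0 0).val * (g.1 1 1).val + 10 * ((g.1 0 1).val * (g.1 1 0).val) : ℕ) : ZMod 11)
      = 1 := by
    push_cast
    rw [ZMod.natCast_zmod_val, ZMod.natCast_zmod_val, ZMod.natCast_zmod_val, ZMod.natCast_zmod_val]
    have h7 : (10 : ZMod 11) = -1 := by decide
    rw [h7]
    linear_combination hdet
  have h8 := congrArg ZMod.val h6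
  rw [ZMod.val_natCast] at h8
  have h9 : (1 : ZMod 11).val = 1 := by decide
  rw [h9] at h8
  show Nat.beq (((g.1 0 0).val * (g.1 1 1).val + 10 * ((g.1 0 1).val * (g.1 1 0).val)) % 11) 1 = true
  rw [h8]
  rfl

theorem m11code_inj (g h : M11G) (hgh : m11code g = m11code h) : g = h := by
  obtain ⟨a1, a2, a3, a4⟩ := m11code_dg g
  obtain ⟨b1, b2, b3, b4⟩ := m11code_dg h
  rw [hgh] at a1 a2 a3 a4
  apply Subtype.ext
  ext i j
  fin_cases i <;> fin_cases j
  · exact ZMod.val_injective 11 (a1.symm.trans b1)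
  · exact ZMod.val_injective 11 (a2.symm.trans b2)
  · exact ZMod.val_injective 11 (a3.symm.trans b3)
  · exact ZMod.val_injective 11 (a4.symm.trans b4)

theorem m11_val_entry (g h : M11G) (i j : Fin 2) :
    ((g * h).1 i j).val = ((g.1 i 0).val * (h.1 0 j).val + (g.1 i 1).val * (h.1 1 j).val) % 11 := by
  rw [Matrix.SpecialLinearGroup.coe_mul, Matrix.mul_apply, Fin.sum_univ_two, ZMod.val_add,
    ZMod.val_mul, ZMod.val_mul, ← Nat.add_mod]

theorem m11code_mul (g h : M11G) : m11code (g * h) = m11mul (m11code g) (m11code h) := by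
  obtain ⟨a1, a2, a3, a4⟩ := m11code_dg g
  obtain ⟨b1, b2, b3, b4⟩ := m11code_dg h
  unfold m11mul
  rw [a1, a2, a3, a4, b1, b2, b3, b4]
  unfold m11code
  rw [m11_val_entry, m11_val_entry, m11_val_entry, m11_val_entry]
  exact (Nat.add_assoc _ _ _).trans (Nat.add_assoc _ _ _)

theorem m11code_inv (g : M11G) : m11code g⁻¹ = m11inv (m11code g) := by
  obtain ⟨a1, a2, a3, a4⟩ := m11code_dg g
  unfold m11inv
  rw [a1, a2, a3, a4]
  unfold m11code
  have e : (g⁻¹).1 = !![g.1 1 1, -g.1 0 1; -g.1 1 0, g.1 0 0] := by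
    rw [Matrix.SpecialLinearGroup.coe_inv, Matrix.adjugate_fin_two]
  rw [e]
  simp only [Matrix.of_apply, Matrix.cons_val', Matrix.cons_val_zero, Matrix.cons_val_one,
    Matrix.cons_val_fin_one, ZMod.neg_val']
  exact (Nat.add_assoc _ _ _).trans (Nat.add_assoc _ _ _)

theorem m11code_one : m11code 1 = 1332 := by
  unfold m11code
  have h1 : (1 : ZMod 11).val = 1 := by decide
  simp [h1]

/-- Decoding a valid code. -/
def m11dec (n : ℕ) (h : m11valid n = true) : M11G :=
  ⟨!![(m11dg n 1 : ZMod 11), (m11dg n 11 : ZMod 11); (m11dg n 121 : ZMod 11), (m11dg n 1331 : ZMod 11)],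
    by
      rw [Matrix.det_fin_two_of]
      have h1 : (m11dg n 1 * m11dg n 1331 + 10 * (m11dg n 11 * m11dg n 121)) % 11 = 1 :=
        Nat.eq_of_beq_eq_true h
      have h2 : ((m11dg n 1 * m11dg n 1331 + 10 * (m11dg n 11 * m11dg n 121) : ℕ) : ZMod 11) = 1 := by
        rw [← ZMod.natCast_mod, h1]
        rfl
      push_cast at h2
      have h7 : (10 : ZMod 11) = -1 := by decide
      rw [h7] at h2
      linear_combination h2⟩

theorem m11code_dec (n : ℕ) (h : m11valid n = true) (hn : n < 14641) : m11code (m11dec n h) = n := by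
  unfold m11code m11dec
  simp only [Matrix.of_apply, Matrix.cons_val', Matrix.cons_val_zero, Matrix.cons_val_one,
    Matrix.cons_val_fin_one]
  rw [ZMod.val_natCast_of_lt (m11dg_lt n 1), ZMod.val_natCast_of_lt (m11dg_lt n 11),
    ZMod.val_natCast_of_lt (m11dg_lt n 121), ZMod.val_natCast_of_lt (m11dg_lt n 1331)]
  exact (m11pack_of_lt n hn).symm

theorem m11mul_lt (n m : ℕ) : m11mul n m < 14641 := by
  have h : ∀ a b c d : ℕ, a < 11 → b < 11 → c < 11 → d < 11 →
      a + (11 * b + (121 * c + 1331 * d)) < 14641 := by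
    intro a b c d ha hb hc hd
    omega
  exact h _ _ _ _ (Nat.mod_lt _ (by norm_num)) (Nat.mod_lt _ (by norm_num))
    (Nat.mod_lt _ (by norm_num)) (Nat.mod_lt _ (by norm_num))

theorem m11inv_lt (n : ℕ) : m11inv n < 14641 := by
  have h : ∀ a b c d : ℕ, a < 11 → b < 11 → c < 11 → d < 11 →
      a + (11 * b + (121 * c + 1331 * d)) < 14641 := by
    intro a b c d ha hb hc hd
    omega
  exact h _ _ _ _ (m11dg_lt n 1331) (Nat.mod_lt _ (by norm_num))
    (Nat.mod_lt _ (by norm_num)) (m11dg_lt n 1)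

theorem m11code_cj (g x : M11G) : m11code (g * x * g⁻¹) = m11cj (m11code g) (m11code x) := by
  rw [m11code_mul, m11code_mul, m11code_inv]
  rfl

/-- The central element `-1`. -/
def m11z : M11G := ⟨!![10, 0; 0, 10], by rw [Matrix.det_fin_two_of]; decide⟩

theorem m11code_z : m11code m11z = 13320 := by
  unfold m11code m11z
  simp
  decide

theorem m11z_mem_center : m11z ∈ Subgroup.center M11G := by
  rw [Subgroup.mem_center_iff]
  intro h
  apply Subtype.ext
  rw [Matrix.SpecialLinearGroup.coe_mul, Matrix.SpecialLinearGroup.coe_mul]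
  ext i j
  fin_cases i <;> fin_cases j <;> simp [m11z, Matrix.mul_apply, Fin.sum_univ_two] <;> ring

theorem m11_center_of_code (g : M11G) (h : m11inZ (m11code g) = true) :
    g ∈ Subgroup.center M11G := by
  rcases (m11inZ_iff _).mp h with h | h
  · have : g = 1 := m11code_inj g 1 (h.trans m11code_one.symm)
    rw [this]
    exact Subgroup.one_mem _
  · have : g = m11z := m11code_inj g m11z (h.trans m11code_z.symm)
    rw [this]
    exact m11z_mem_center

theorem m11_card_center : Nat.card (Subgroup.center M11G) = 2 := by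
  have h := card_center_SL (ZMod 11) 2 (by norm_num)
  rw [ZMod.card] at h
  exact h

theorem m11z_ne_one : m11z ≠ 1 := by
  intro h
  have h2 := congrArg m11code h
  rw [m11code_z, m11code_one] at h2
  exact absurd h2 (by norm_num)

theorem m11_code_of_center (g : M11G) (hg : g ∈ Subgroup.center M11G) :
    m11inZ (m11code g) = true := by
  classical
  by_contra hne
  -- three distinct central elements: 1, z, g
  have h1 : g ≠ 1 := by
    rintro rfl
    exact hne (by rw [m11code_one]; rfl)
  have h2 : g ≠ m11z := by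
    rintro rfl
    exact hne (by rw [m11code_z]; rfl)
  have hcard := m11_card_center
  have h3 : 3 ≤ Nat.card (Subgroup.center M11G) := by
    let f : Fin 3 → Subgroup.center M11G := ![⟨1, Subgroup.one_mem _⟩, ⟨m11z, m11z_mem_center⟩, ⟨g, hg⟩]
    have hf : Function.Injective f := by
      intro i j hij
      fin_cases i <;> fin_cases j <;> simp [f, Subtype.ext_iff] at hij ⊢
      · exact absurd hij.symm m11z_ne_one
      · exact absurd hij.symm h1
      · exact absurd hij m11z_ne_one
      · exact absurd hij.symm h2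
      · exact absurd hij h1
      · exact absurd hij h2
    have := Nat.card_le_card_of_injective f hf
    rwa [Nat.card_fin] at this
  omega

theorem m11_card : Nat.card M11G = 1320 := by
  have h := card_SL2 (ZMod 11)
  rw [ZMod.card] at h
  have h2 : Nat.card M11G * 10 = 1320 * 10 := by
    rw [show (10 : ℕ) = 11 - 1 from rfl]
    exact h
  exact Nat.eq_of_mul_eq_mul_right (by norm_num) h2

/-! ### Subgroups from code lists with bitmaps -/

/-- The check that `L` (sorted) with bitmap `B` describes a subgroup. -/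
def m11chk (L : List ℕ) (B : ℕ) : Bool :=
  L.all (fun n => m11bit B n && m11valid n && Nat.blt n 14641 && m11bit B (m11inv n) &&
    L.all (fun m => m11bit B (m11mul n m))) && m11bit B 1332 && m11inc 0 L &&
    m11all (fun n => !(m11bit B n) || m11mem n L) 14641

theorem m11chk_spec {L : List ℕ} {B : ℕ} (h : m11chk L B = true) :
    (∀ n ∈ L, m11bit B n = true ∧ m11valid n = true ∧ n < 14641 ∧ m11bit B (m11inv n) = true ∧
      ∀ m ∈ L, m11bit B (m11mul n m) = true) ∧ m11bit B 1332 = true ∧ L.Nodup ∧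
      ∀ n < 14641, m11bit B n = true → n ∈ L := by
  unfold m11chk at h
  rw [Bool.and_eq_true, Bool.and_eq_true, Bool.and_eq_true] at h
  obtain ⟨⟨⟨h1, h2⟩, h3⟩, h4⟩ := h
  refine ⟨?_, h2, ?_, ?_⟩
  · intro n hn
    have h5 := List.all_eq_true.mp h1 n hn
    rw [Bool.and_eq_true, Bool.and_eq_true, Bool.and_eq_true, Bool.and_eq_true] at h5
    obtain ⟨⟨⟨⟨a1, a2⟩, a3⟩, a4⟩, a5⟩ := h5
    exact ⟨a1, a2, Nat.le_of_ble_eq_true a3, a4, fun m hm => List.all_eq_true.mp a5 m hm⟩
  · exact (m11inc_spec L 0 h3).1.imp (fun hlt => ne_of_lt hlt)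
  · intro n hn hb
    have h5 := m11all_spec _ 14641 h4 n hn
    have h6 : (!(m11bit B n) || m11mem n L) = true := h5
    rw [hb, Bool.not_true, Bool.false_or] at h6
    exact m11mem_spec n L h6

theorem m11chk_mem_iff {L : List ℕ} {B : ℕ} (h : m11chk L B = true) (n : ℕ) (hn : n < 14641) :
    n ∈ L ↔ m11bit B n = true :=
  ⟨fun hm => ((m11chk_spec h).1 n hm).1, fun hb => (m11chk_spec h).2.2.2 n hn hb⟩

/-- The subgroup of `SL₂(11)` given by a checked list of codes. -/
def m11sub (L : List ℕ) (B : ℕ) (h : m11chk L B = true) : Subgroup M11G where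
  carrier := {g | m11bit B (m11code g) = true}
  mul_mem' := by
    intro a b ha hb
    have ha' := (m11chk_mem_iff h _ (m11code_lt a)).mpr ha
    have hb' := (m11chk_mem_iff h _ (m11code_lt b)).mpr hb
    show m11bit B (m11code (a * b)) = true
    rw [m11code_mul]
    exact ((m11chk_spec h).1 _ ha').2.2.2.2 _ hb'
  one_mem' := by
    show m11bit B (m11code 1) = true
    rw [m11code_one]
    exact (m11chk_spec h).2.1
  inv_mem' := by
    intro a ha
    have ha' := (m11chk_mem_iff h _ (m11code_lt a)).mpr ha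
    show m11bit B (m11code a⁻¹) = true
    rw [m11code_inv]
    exact ((m11chk_spec h).1 _ ha').2.2.2.1

theorem mem_m11sub {L : List ℕ} {B : ℕ} {h : m11chk L B = true} {g : M11G} :
    g ∈ m11sub L B h ↔ m11bit B (m11code g) = true := Iff.rfl

theorem mem_m11sub' {L : List ℕ} {B : ℕ} {h : m11chk L B = true} {g : M11G} :
    g ∈ m11sub L B h ↔ m11code g ∈ L :=
  mem_m11sub.trans (m11chk_mem_iff h _ (m11code_lt g)).symm

theorem card_m11sub (L : List ℕ) (B : ℕ) (h : m11chk L B = true) :
    Nat.card (m11sub L B h) = L.length := by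
  classical
  have hnd := (m11chk_spec h).2.2.1
  let f : m11sub L B h → (L.toFinset : Finset ℕ) :=
    fun g => ⟨m11code g.1, List.mem_toFinset.mpr (mem_m11sub'.mp g.2)⟩
  have hf : Function.Bijective f := by
    constructor
    · intro a b hab
      apply Subtype.ext
      apply m11code_inj
      exact congrArg Subtype.val hab
    · rintro ⟨n, hn⟩
      have hnL := List.mem_toFinset.mp hn
      obtain ⟨-, hv, hlt, -, -⟩ := (m11chk_spec h).1 n hnL
      refine ⟨⟨m11dec n hv, mem_m11sub'.mpr ?_⟩, ?_⟩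
      · rw [m11code_dec n hv hlt]
        exact hnL
      · apply Subtype.ext
        exact m11code_dec n hv hlt
  rw [Nat.card_congr (Equiv.ofBijective f hf), Nat.card_eq_fintype_card, Fintype.card_coe,
    List.toFinset_card_of_nodup hnd]

theorem index_m11sub (L : List ℕ) (B : ℕ) (h : m11chk L B = true) (hlen : L.length = 120) :
    (m11sub L B h).index = 11 := by
  have h1 := Subgroup.index_mul_card (m11sub L B h)
  rw [card_m11sub, hlen, m11_card] at h1
  omega

theorem center_le_m11sub (L : List ℕ) (B : ℕ) (h : m11chk L B = true)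
    (hz : m11bit B 13320 = true) : Subgroup.center M11G ≤ m11sub L B h := by
  intro g hg
  rw [mem_m11sub]
  rcases (m11inZ_iff _).mp (m11_code_of_center g hg) with h1 | h1
  · rw [h1]
    exact (m11chk_spec h).2.1
  · rw [h1]
    exact hz

/-- The image in `PSL₂(11)` of a checked subgroup of order 120 with a checked subgroup of order 24
having central core is `A₅`. -/
theorem m11_alt (L : List ℕ) (B : ℕ) (LQ : List ℕ) (BQ : ℕ) (h : m11chk L B = true)
    (hQ : m11chk LQ BQ = true) (hlen : L.length = 120) (hlenQ : LQ.length = 24)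
    (hsub : LQ.all (fun n => m11bit B n) = true) (hz : m11bit BQ 13320 = true)
    (hcore : LQ.all (fun x => m11inZ x ||
      L.any (fun k => !(m11bit BQ (m11mul (m11mul (m11inv k) x) k)))) = true) :
    Nonempty ((m11sub L B h).map (QuotientGroup.mk' (Subgroup.center M11G)) ≃*
      alternatingGroup (Fin 5)) := by
  apply iso_alt_of_coset_action (Subgroup.center M11G) (m11sub LQ BQ hQ) (m11sub L B h)
    (center_le_m11sub LQ BQ hQ hz)
  · intro g hg
    rw [mem_m11sub]
    exact List.all_eq_true.mp hsub _ (mem_m11sub'.mp hg)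
  · intro x hx hconj
    have hxL := mem_m11sub'.mp hx
    have h1 := List.all_eq_true.mp hcore _ hxL
    rw [Bool.or_eq_true] at h1
    rcases h1 with h1 | h1
    · exact m11_center_of_code x h1
    · exfalso
      rw [List.any_eq_true] at h1
      obtain ⟨k, hk, hk2⟩ := h1
      obtain ⟨hkb, hkv, hklt, -, -⟩ := (m11chk_spec h).1 k hk
      have hmem : m11dec k hkv ∈ m11sub L B h := by
        rw [mem_m11sub, m11code_dec k hkv hklt]
        exact hkb
      have h2 := hconj _ hmem
      rw [mem_m11sub, m11code_mul, m11code_mul, m11code_inv, m11code_dec k hkv hklt] at h2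
      rw [h2] at hk2
      exact absurd hk2 (by decide)
  · rw [card_m11sub, card_m11sub, hlen, hlenQ]
  · rw [card_m11sub, hlen, m11_card_center]

end Cfsg.Agent.Helper2
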