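import Mathlib
import Cfsg.Agent.Helper2.M11Data
import Cfsg.Agent.Helper2.A5Count
import Cfsg.Agent.Helper2.ExcIso

set_option autoImplicit false

namespace Cfsg.Agent.Helper2

open scoped Pointwise

section a5main

variable {P : Type*} [Group P] (ρ : M11G →* P) (hsurj : Function.Surjective ρ)
  (hker : ρ.ker = Subgroup.center M11G)

include hker in
theorem a5_map_mem {L : List ℕ} {B : ℕ} {h : m11chk L B = true} (hz : m11bit B 13320 = true)
    (u : M11G) : ρ u ∈ (m11sub L B h).map ρ ↔ u ∈ m11sub L B h := by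
  constructor
  · intro hu
    have h1 : u ∈ ((m11sub L B h).map ρ).comap ρ := hu
    rwa [Subgroup.comap_map_eq_self (by rw [hker]; exact center_le_m11sub L B h hz)] at h1
  · exact Subgroup.mem_map_of_mem ρ

include hsurj hker in
theorem a5_map_alt {L : List ℕ} {B : ℕ} {h : m11chk L B = true}
    (e : Nonempty ((m11sub L B h).map (QuotientGroup.mk' (Subgroup.center M11G)) ≃*
      alternatingGroup (Fin 5))) :
    Nonempty ((m11sub L B h).map ρ ≃* alternatingGroup (Fin 5)) := by
  obtain ⟨e⟩ := e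
  let ψ : M11G ⧸ Subgroup.center M11G ≃* P :=
    (QuotientGroup.quotientMulEquivOfEq hker.symm).trans
      (QuotientGroup.quotientKerEquivOfSurjective ρ hsurj)
  have hcomp : ψ.toMonoidHom.comp (QuotientGroup.mk' (Subgroup.center M11G)) = ρ := by
    ext g
    rfl
  have hmap : ((m11sub L B h).map (QuotientGroup.mk' (Subgroup.center M11G))).map ψ.toMonoidHom =
      (m11sub L B h).map ρ := by
    rw [Subgroup.map_map, hcomp]
  exact ⟨(MulEquiv.subgroupCongr hmap).symm.trans ((MulEquiv.subgroupMap ψ _).symm.trans e)⟩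

include hker in
theorem a5_ker_of_inZ (u : M11G) (h : m11inZ (m11code u) = true) : ρ u = 1 := by
  have h1 : u ∈ ρ.ker := by
    rw [hker]
    exact m11_center_of_code u h
  exact MonoidHom.mem_ker.mp h1

include hker in
theorem a5_inZ_of_ker (u : M11G) (h : ρ u = 1) : m11inZ (m11code u) = true := by
  have h1 : u ∈ ρ.ker := MonoidHom.mem_ker.mpr h
  rw [hker] at h1
  exact m11_code_of_center u h1

include hsurj hker in
theorem a5_liftX (x : P) (hx : orderOf x = 2) : ∃ u : M11G, ρ u = x ∧ m11code u ∈ a5X := by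
  obtain ⟨u, rfl⟩ := hsurj x
  have h1 : m11inZ (m11mul (m11code u) (m11code u)) = true := by
    rw [← m11code_mul]
    apply a5_inZ_of_ker ρ hker
    have h := pow_orderOf_eq_one (ρ u)
    rw [hx, pow_two] at h
    rw [map_mul, h]
  have h2 : m11inZ (m11code u) = false := by
    by_contra hc
    rw [Bool.not_eq_false] at hc
    have h := a5_ker_of_inZ ρ hker u hc
    rw [h, orderOf_one] at hx
    exact absurd hx (by norm_num)
  have h3 := m11all_spec _ 14641 a5_Xcomplete (m11code u) (m11code_lt u)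
  have h4 : (!(m11valid (m11code u)) || !(m11inZ (m11mul (m11code u) (m11code u))) ||
      m11inZ (m11code u) || m11mem (m11code u) a5X ||
      m11mem (m11mul 13320 (m11code u)) a5X) = true := h3
  rw [m11code_valid, h1, h2] at h4
  simp only [Bool.not_true, Bool.false_or, Bool.or_eq_true] at h4
  rcases h4 with h4 | h4
  · exact ⟨u, rfl, m11mem_spec _ _ h4⟩
  · refine ⟨m11z * u, ?_, ?_⟩
    · rw [map_mul, a5_ker_of_inZ ρ hker m11z (by rw [m11code_z]; rfl), one_mul]
    · rw [m11code_mul, m11code_z]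
      exact m11mem_spec _ _ h4

include hsurj hker in
theorem a5_liftY (y : P) (hy : orderOf y = 3) : ∃ v : M11G, ρ v = y ∧ m11code v ∈ a5Y := by
  obtain ⟨u, rfl⟩ := hsurj y
  have h1 : m11inZ (m11mul (m11mul (m11code u) (m11code u)) (m11code u)) = true := by
    rw [← m11code_mul, ← m11code_mul]
    apply a5_inZ_of_ker ρ hker
    have h := pow_orderOf_eq_one (ρ u)
    rw [hy, pow_succ, pow_two] at h
    rw [map_mul, map_mul, h]
  have h2 : m11inZ (m11code u) = false := by
    by_contra hc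
    rw [Bool.not_eq_false] at hc
    have h := a5_ker_of_inZ ρ hker u hc
    rw [h, orderOf_one] at hy
    exact absurd hy (by norm_num)
  have h3 := m11all_spec _ 14641 a5_Ycomplete (m11code u) (m11code_lt u)
  have h4 : (!(m11valid (m11code u)) ||
      !(m11inZ (m11mul (m11mul (m11code u) (m11code u)) (m11code u))) ||
      m11inZ (m11code u) || m11mem (m11code u) a5Y ||
      m11mem (m11mul 13320 (m11code u)) a5Y) = true := h3
  rw [m11code_valid, h1, h2] at h4
  simp only [Bool.not_true, Bool.false_or, Bool.or_eq_true] at h4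
  rcases h4 with h4 | h4
  · exact ⟨u, rfl, m11mem_spec _ _ h4⟩
  · refine ⟨m11z * u, ?_, ?_⟩
    · rw [map_mul, a5_ker_of_inZ ρ hker m11z (by rw [m11code_z]; rfl), one_mul]
    · rw [m11code_mul, m11code_z]
      exact m11mem_spec _ _ h4

def a5S1 : Subgroup M11G := m11sub a5H1 a5B1 a5H1_chk
def a5S2 : Subgroup M11G := m11sub a5H2 a5B2 a5H2_chk

include hsurj hker in
theorem a5_L1 (x y : P) (hx : orderOf x = 2) (hy : orderOf y = 3) (hxy : orderOf (x * y) = 5) :
    ∃ g : P, (g * x * g⁻¹ ∈ a5S1.map ρ ∧ g * y * g⁻¹ ∈ a5S1.map ρ) ∨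
      (g * x * g⁻¹ ∈ a5S2.map ρ ∧ g * y * g⁻¹ ∈ a5S2.map ρ) := by
  obtain ⟨u, rfl, hu⟩ := a5_liftX ρ hsurj hker x hx
  obtain ⟨v, rfl, hv⟩ := a5_liftY ρ hsurj hker y hy
  have h5 : m11five (m11mul (m11code u) (m11code v)) = true := by
    unfold m11five
    rw [Bool.and_eq_true]
    constructor
    · rw [← m11code_mul, ← m11code_mul, ← m11code_mul, ← m11code_mul]
      apply a5_inZ_of_ker ρ hker
      have h := pow_orderOf_eq_one (ρ u * ρ v)
      rw [hxy] at h
      have e : (u * v) * (u * v) * ((u * v) * (u * v)) * (u * v) = (u * v) ^ 5 := by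
        rw [show (5 : ℕ) = 2 + 2 + 1 from rfl, pow_succ, pow_add, pow_two]
      rw [e, map_pow, map_mul, h]
    · rw [Bool.not_eq_true']
      by_contra hc
      rw [Bool.not_eq_false] at hc
      rw [← m11code_mul] at hc
      have h := a5_ker_of_inZ ρ hker (u * v) hc
      rw [map_mul] at h
      rw [h, orderOf_one] at hxy
      exact absurd hxy (by norm_num)
  have h6 := List.all_eq_true.mp (List.all_eq_true.mp a5_K2 _ hu) _ hv
  rw [h5, Bool.not_true, Bool.false_or] at h6
  unfold a5hit at h6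
  rw [List.any_eq_true] at h6
  obtain ⟨r, hr, hr2⟩ := h6
  have hrok := List.all_eq_true.mp a5_Rok r hr
  rw [Bool.and_eq_true] at hrok
  have hrlt : r < 14641 := Nat.le_of_ble_eq_true hrok.2
  have hcode := m11code_dec r hrok.1 hrlt
  refine ⟨ρ (m11dec r hrok.1), ?_⟩
  have e1 : ρ (m11dec r hrok.1) * ρ u * (ρ (m11dec r hrok.1))⁻¹ =
      ρ (m11dec r hrok.1 * u * (m11dec r hrok.1)⁻¹) := by
    rw [map_mul, map_mul, map_inv]
  have e2 : ρ (m11dec r hrok.1) * ρ v * (ρ (m11dec r hrok.1))⁻¹ =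
      ρ (m11dec r hrok.1 * v * (m11dec r hrok.1)⁻¹) := by
    rw [map_mul, map_mul, map_inv]
  rw [e1, e2]
  rw [Bool.or_eq_true, Bool.and_eq_true, Bool.and_eq_true] at hr2
  rcases hr2 with ⟨b1, b2⟩ | ⟨b1, b2⟩
  · left
    constructor
    · apply Subgroup.mem_map_of_mem
      show m11bit a5B1 (m11code _) = true
      rw [m11code_cj, hcode]
      exact b1
    · apply Subgroup.mem_map_of_mem
      show m11bit a5B1 (m11code _) = true
      rw [m11code_cj, hcode]
      exact b2
  · right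
    constructor
    · apply Subgroup.mem_map_of_mem
      show m11bit a5B2 (m11code _) = true
      rw [m11code_cj, hcode]
      exact b1
    · apply Subgroup.mem_map_of_mem
      show m11bit a5B2 (m11code _) = true
      rw [m11code_cj, hcode]
      exact b2

include hker in
theorem a5_conj_out {L : List ℕ} {B : ℕ} {h : m11chk L B = true} {L' : List ℕ} {B' : ℕ}
    {h' : m11chk L' B' = true} (hz' : m11bit B' 13320 = true) (g₀ : M11G)
    (hany : L.any (fun k => !(m11bit B' (m11cj (m11code g₀) k))) = true) :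
    ∃ x ∈ (m11sub L B h).map ρ, ρ g₀ * x * (ρ g₀)⁻¹ ∉ (m11sub L' B' h').map ρ := by
  rw [List.any_eq_true] at hany
  obtain ⟨k, hk, hk2⟩ := hany
  obtain ⟨hkb, hkv, hklt, -, -⟩ := (m11chk_spec h).1 k hk
  have hcode := m11code_dec k hkv hklt
  refine ⟨ρ (m11dec k hkv), Subgroup.mem_map_of_mem ρ (by rw [mem_m11sub, hcode]; exact hkb), ?_⟩
  intro hc
  have e1 : ρ g₀ * ρ (m11dec k hkv) * (ρ g₀)⁻¹ = ρ (g₀ * m11dec k hkv * g₀⁻¹) := by
    rw [map_mul, map_mul, map_inv]
  rw [e1, a5_map_mem ρ hker hz', mem_m11sub, m11code_cj, hcode] at hc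
  rw [hc] at hk2
  exact absurd hk2 (by decide)

include hsurj hker in
theorem a5_L2 {L : List ℕ} {B : ℕ} {h : m11chk L B = true} (hz : m11bit B 13320 = true)
    (hN : m11all (fun n => !(m11valid n) || m11bit B n ||
      L.any (fun k => !(m11bit B (m11cj n k)))) 14641 = true) (g : P)
    (hg : g ∉ (m11sub L B h).map ρ) :
    ∃ x ∈ (m11sub L B h).map ρ, g * x * g⁻¹ ∉ (m11sub L B h).map ρ := by
  obtain ⟨g₀, rfl⟩ := hsurj g
  have h1 : m11bit B (m11code g₀) = false := by
    by_contra hc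
    rw [Bool.not_eq_false] at hc
    exact hg (Subgroup.mem_map_of_mem ρ (mem_m11sub.mpr hc))
  have h2 := m11all_spec _ 14641 hN (m11code g₀) (m11code_lt g₀)
  have h3 : (!(m11valid (m11code g₀)) || m11bit B (m11code g₀) ||
      L.any (fun k => !(m11bit B (m11cj (m11code g₀) k)))) = true := h2
  rw [m11code_valid, h1, Bool.not_true, Bool.false_or, Bool.false_or] at h3
  exact a5_conj_out ρ hker hz g₀ h3

include hsurj hker in
theorem a5_L3 {L : List ℕ} {B : ℕ} {h : m11chk L B = true} {L' : List ℕ} {B' : ℕ}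
    {h' : m11chk L' B' = true} (hz' : m11bit B' 13320 = true)
    (hN : m11all (fun n => !(m11valid n) ||
      L.any (fun k => !(m11bit B' (m11cj n k)))) 14641 = true) (g : P) :
    ∃ x ∈ (m11sub L B h).map ρ, g * x * g⁻¹ ∉ (m11sub L' B' h').map ρ := by
  obtain ⟨g₀, rfl⟩ := hsurj g
  have h2 := m11all_spec _ 14641 hN (m11code g₀) (m11code_lt g₀)
  have h3 : (!(m11valid (m11code g₀)) ||
      L.any (fun k => !(m11bit B' (m11cj (m11code g₀) k)))) = true := h2
  rw [m11code_valid, Bool.not_true, Bool.false_or] at h3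
  exact a5_conj_out ρ hker hz' g₀ h3

include hsurj hker in
/-- A central quotient of `SL₂(11)` has exactly 22 subgroups isomorphic to `A₅`, in two conjugacy
classes. -/
theorem a5_main :
    Nat.card {H : Subgroup P // Nonempty (H ≃* alternatingGroup (Fin 5))} = 22 ∧
      ∃ H K : Subgroup P, Nonempty (H ≃* alternatingGroup (Fin 5)) ∧
        Nonempty (K ≃* alternatingGroup (Fin 5)) ∧ (∀ g : P, MulAut.conj g • H ≠ K) ∧
        ∀ L : Subgroup P, Nonempty (L ≃* alternatingGroup (Fin 5)) →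
          ∃ g : P, MulAut.conj g • L = H ∨ MulAut.conj g • L = K := by
  have hfin : Finite P := Finite.of_surjective ρ hsurj
  exact a5_count (a5S1.map ρ) (a5S2.map ρ)
    (a5_map_alt ρ hsurj hker (m11_alt a5H1 a5B1 a5Q1 a5BQ1 a5H1_chk a5Q1_chk a5H1_len a5Q1_len
      a5_sub1 a5_zQ1 a5_core1))
    (a5_map_alt ρ hsurj hker (m11_alt a5H2 a5B2 a5Q2 a5BQ2 a5H2_chk a5Q2_chk a5H2_len a5Q2_len
      a5_sub2 a5_zQ2 a5_core2))
    (by
      rw [Subgroup.index_map_eq _ hsurj (by rw [hker]; exact center_le_m11sub _ _ _ a5_zH1)]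
      exact index_m11sub _ _ _ a5H1_len)
    (by
      rw [Subgroup.index_map_eq _ hsurj (by rw [hker]; exact center_le_m11sub _ _ _ a5_zH2)]
      exact index_m11sub _ _ _ a5H2_len)
    (a5_L1 ρ hsurj hker)
    (a5_L2 ρ hsurj hker a5_zH1 a5_N1)
    (a5_L2 ρ hsurj hker a5_zH2 a5_N2)
    (a5_L3 ρ hsurj hker a5_zH2 a5_NC)

end a5main

end Cfsg.Agent.Helper2
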