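import Mathlib
import Cfsg.Agent.Helper2.M21Codes

set_option autoImplicit false

namespace Cfsg.Agent.Helper2

/-- The records 52920 to 60479 of the table pass the check. -/
theorem m21_blk7 : allB m21chk 52920 7560 = true := by decide +kernel

end Cfsg.Agent.Helper2
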