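import Mathlib
import Cfsg.Agent.Helper2.M21Codes
import Cfsg.Agent.Helper2.U42Rows
import Cfsg.Agent.Helper2.M21Chk0
import Cfsg.Agent.Helper2.M21Chk1
import Cfsg.Agent.Helper2.M21Chk2
import Cfsg.Agent.Helper2.M21Chk3
import Cfsg.Agent.Helper2.M21Chk4
import Cfsg.Agent.Helper2.M21Chk5
import Cfsg.Agent.Helper2.M21Chk6
import Cfsg.Agent.Helper2.M21Chk7

set_option autoImplicit false

namespace Cfsg.Agent.Helper2

/-! The facts read off the table of the certificate for `SL₃(4) → M₂₁`. -/

theorem m21_all (i : ℕ) (hi : i < 60480) : m21chk i = true := by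
  by_cases h0 : i < 7560
  · have := allB_spec m21chk 0 7560 m21_blk0 i h0
    rwa [Nat.zero_add] at this
  by_cases h1 : i < 15120
  · have := allB_spec m21chk 7560 7560 m21_blk1 (i - 7560) (by omega)
    rwa [show 7560 + (i - 7560) = i by omega] at this
  by_cases h2 : i < 22680
  · have := allB_spec m21chk 15120 7560 m21_blk2 (i - 15120) (by omega)
    rwa [show 15120 + (i - 15120) = i by omega] at this
  by_cases h3 : i < 30240
  · have := allB_spec m21chk 22680 7560 m21_blk3 (i - 22680) (by omega)
    rwa [show 22680 + (i - 22680) = i by omega] at this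
  by_cases h4 : i < 37800
  · have := allB_spec m21chk 30240 7560 m21_blk4 (i - 30240) (by omega)
    rwa [show 30240 + (i - 30240) = i by omega] at this
  by_cases h5 : i < 45360
  · have := allB_spec m21chk 37800 7560 m21_blk5 (i - 37800) (by omega)
    rwa [show 37800 + (i - 37800) = i by omega] at this
  by_cases h6 : i < 52920
  · have := allB_spec m21chk 45360 7560 m21_blk6 (i - 45360) (by omega)
    rwa [show 45360 + (i - 45360) = i by omega] at this
  have := allB_spec m21chk 52920 7560 m21_blk7 (i - 52920) (by omega)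
  rwa [show 52920 + (i - 52920) = i by omega] at this

def m21key (i : ℕ) : ℕ := mkey (m21rec i)

def m21val (i : ℕ) : ℕ := mval (m21rec i)

def m21nA (i : ℕ) : ℕ := mnA (m21rec i)

def m21nB (i : ℕ) : ℕ := mnB (m21rec i)

def m21par (i : ℕ) : ℕ := mpar (m21rec i)

def m21dep (i : ℕ) : ℕ := mdep (m21rec i)

/-- What the check says of the record `i`. -/
structure M21Row (i : ℕ) : Prop where
  key_lt : m21key i < 262144
  val_lt : m21val i < 1329227995784915872903807060280344576
  key_succ : i < 60479 → m21key i < m21key (i + 1)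
  nA_lt : m21nA i < 60480
  nB_lt : m21nB i < 60480
  key_nA : m21key (m21nA i) = pmul43 (m21key i) 65797
  val_nA : m21val (m21nA i) = pcomp (m21val i) 479663310730678034207776437455390752
  key_nB : m21key (m21nB i) = pmul43 (m21key i) 114832
  val_nB : m21val (m21nB i) = pcomp (m21val i) 691091782802736106340984326467422240
  par : i ≠ 14448 → m21par i < 60480 ∧ m21dep (m21par i) < m21dep i ∧
    (m21nA (m21par i) = i ∨ m21nB (m21par i) = i)
  ker : m21val i = 984818244535754528103549039458486304 → i = 14448 ∨ i = 29872 ∨ i = 45296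

theorem m21_row (i : ℕ) (hi : i < 60480) : M21Row i := by
  have h := m21_all i hi
  unfold m21chk at h
  simp only [natLet_eq] at h
  unfold m21chkR at h
  simp only [Bool.and_eq_true, Bool.or_eq_true] at h
  obtain ⟨⟨⟨⟨⟨⟨⟨⟨⟨⟨h1, h2⟩, h3⟩, h4⟩, h5⟩, h6⟩, h7⟩, h8⟩, h9⟩, h10⟩, h11⟩ := h
  refine ⟨Nat.blt_eq.mp h1, Nat.blt_eq.mp h2, ?_, Nat.blt_eq.mp h4, Nat.blt_eq.mp h5, ?_, ?_, ?_, ?_,
    ?_, ?_⟩
  · intro hlt
    rcases h3 with h3 | h3
    · have := Nat.ble_eq.mp h3
      omega
    · exact Nat.blt_eq.mp h3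
  · rw [← pm3A_eq]
    exact Nat.eq_of_beq_eq_true h6
  · rw [← pcA_eq]
    exact Nat.eq_of_beq_eq_true h7
  · rw [← pm3B_eq]
    exact Nat.eq_of_beq_eq_true h8
  · rw [← pcB_eq]
    exact Nat.eq_of_beq_eq_true h9
  · intro hne
    rcases h10 with h10 | ⟨⟨ha, hb⟩, hc⟩
    · exact absurd (Nat.eq_of_beq_eq_true h10) hne
    · refine ⟨Nat.blt_eq.mp ha, Nat.blt_eq.mp hb, ?_⟩
      rcases hc with hc | hc
      · exact Or.inl (Nat.eq_of_beq_eq_true hc)
      · exact Or.inr (Nat.eq_of_beq_eq_true hc)
  · intro hv
    rcases h11 with ((h11 | h11) | h11) | h11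
    · exfalso
      have hv' : Nat.beq (mval (m21rec i)) 984818244535754528103549039458486304 = true := by
        rw [show mval (m21rec i) = 984818244535754528103549039458486304 from hv]
        exact Nat.beq_refl _
      rw [hv'] at h11
      exact absurd h11 (by decide)
    · exact Or.inl (Nat.eq_of_beq_eq_true h11)
    · exact Or.inr (Or.inl (Nat.eq_of_beq_eq_true h11))
    · exact Or.inr (Or.inr (Nat.eq_of_beq_eq_true h11))

theorem m21_root : m21key 14448 = 65793 ∧ m21val 14448 = 984818244535754528103549039458486304 := by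
  decide +kernel

theorem m21_scal : m21key 29872 = 131586 ∧ m21key 45296 = 197379 := by
  decide +kernel

theorem m21_a_sq : pmul43 65797 65797 = 65793 := by
  decide +kernel

theorem m21_b_pow : pmul43 (pmul43 (pmul43 (pmul43 (pmul43 (pmul43 114832 114832) 114832) 114832)
    114832) 114832) 114832 = 65793 := by
  decide +kernel

theorem m21_key_mono : ∀ j i, i < j → j < 60480 → m21key i < m21key j := by
  intro j
  induction j with
  | zero => intro i hi; omega
  | succ j ih =>
    intro i hi hj
    have h1 := (m21_row j (by omega)).key_succ (by omega)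
    rcases Nat.lt_succ_iff_lt_or_eq.mp hi with h | h
    · exact lt_trans (ih i h (by omega)) h1
    · rw [h]; exact h1

end Cfsg.Agent.Helper2
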