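import Mathlib
import Cfsg.Agent.Helper2.M21Pack
import Cfsg.Agent.Helper2.M21Rows
import Cfsg.Agent.Helper2.U42Fields
import Cfsg.Agent.Helper2.U42Abs
import Cfsg.Agent.Helper2.U42Main
import Cfsg.Agent.Helper2.LinGroups2
import Cfsg.Agent.Helper3.Golay.M24Trans
import Cfsg.Agent.Helper3.Golay.Orbit
import Cfsg.Agent.Helper3.Golay.Perm

set_option autoImplicit false

namespace Cfsg.Agent.Helper2

open Cfsg.Agent.Helper3

/-! The stabiliser of three points in `M₂₄` is `PSL₃(4)`, from the table of a homomorphism of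
`SL₃(4)` onto the stabiliser of the points `0, 1, 2`. -/

section F43

variable {F : Type*} [Field F]

theorem ent43_spec [CharP F 2] (w : F) (hw : w ^ 2 = w + 1) (a0 a1 a2 b0 b1 b2 : ℕ)
    (ha0 : a0 < 4) (ha1 : a1 < 4) (ha2 : a2 < 4) (hb0 : b0 < 4) (hb1 : b1 < 4) (hb2 : b2 < 4) :
    ent43 a0 a1 a2 b0 b1 b2 < 4 ∧ dec4 w (ent43 a0 a1 a2 b0 b1 b2) =
      dec4 w a0 * dec4 w b0 + dec4 w a1 * dec4 w b1 + dec4 w a2 * dec4 w b2 := by
  have h : ent43 a0 a1 a2 b0 b1 b2 =
      fadd4 (fadd4 (fmul4 a0 b0) (fmul4 a1 b1)) (fmul4 a2 b2) := by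
    unfold ent43
    rw [tmul4_eq a0 ha0 b0 hb0, tmul4_eq a1 ha1 b1 hb1, tmul4_eq a2 ha2 b2 hb2,
      xor4_eq _ (fmul4_lt _ _) _ (fmul4_lt _ _), xor4_eq _ (fadd4_lt _ _) _ (fmul4_lt _ _)]
  rw [h]
  refine ⟨fadd4_lt _ _, ?_⟩
  rw [dec4_add, dec4_add, dec4_mul w hw, dec4_mul w hw, dec4_mul w hw]

/-- The `3 × 3` matrix over `F₄` of a code in base 4. -/
def md43 (w : F) (a : ℕ) : Matrix (Fin 3) (Fin 3) F := md3B (dec4 w) 4 a

theorem md43_mul [CharP F 2] (w : F) (hw : w ^ 2 = w + 1) (a b : ℕ) :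
    md43 w (pmul43 a b) = md43 w a * md43 w b :=
  md3B_pmulB3 _ 4 (by norm_num) ent43 (ent43_spec w hw) a b

theorem md43_inj [CharP F 2] (w : F) (hw : w ^ 2 = w + 1) (a b : ℕ) (ha : a < 262144)
    (hb : b < 262144) (h : md43 w a = md43 w b) : a = b :=
  md3B_inj _ 4 (by norm_num) (dec4_inj w hw) a b
    (lt_of_lt_of_eq ha (by norm_num)) (lt_of_lt_of_eq hb (by norm_num)) h

theorem scal43_digits : ∀ c, c < 4 → ∀ t, t < 9 →
    dgB 4 (c * 65793) t = if t / 3 = t % 3 then c else 0 := by
  decide +kernel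

theorem md43_scalar (w : F) (c : ℕ) (hc : c < 4) (i j : Fin 3) :
    md43 w (c * 65793) i j = if i = j then dec4 w c else 0 :=
  md3B_scalar _ 4 _ c (dec4_zero w) (scal43_digits c hc) i j

theorem md43_one (w : F) : md43 w 65793 = 1 := by
  ext i j
  have := md43_scalar w 1 (by norm_num) i j
  rw [one_mul] at this
  rw [this, dec4_one, Matrix.one_apply]

theorem det3_of_sq [CharP F 2] (M : Matrix (Fin 3) (Fin 3) F) (h : M * M = 1) : M.det = 1 := by
  have h2 : (2 : F) = 0 := two_eq_zero16
  have h1 := congrArg Matrix.det h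
  rw [Matrix.det_mul, Matrix.det_one] at h1
  have h3 : (M.det - 1) ^ 2 = 0 := by linear_combination h1 - (M.det - 1) * h2
  have h5 := pow_eq_zero_iff (two_ne_zero) |>.mp h3
  linear_combination h5

theorem det3_of_pow7 [Fintype F] (hF : Fintype.card F = 4) (M : Matrix (Fin 3) (Fin 3) F)
    (h : M * M * M * M * M * M * M = 1) : M.det = 1 := by
  have h1 := congrArg Matrix.det h
  simp only [Matrix.det_mul, Matrix.det_one] at h1
  have hd : M.det ≠ 0 := by
    intro h0
    rw [h0] at h1
    simp at h1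
  have h3 : M.det ^ 3 = 1 := by
    have := FiniteField.pow_card_sub_one_eq_one M.det hd
    rw [hF] at this
    exact this
  linear_combination h1 - M.det * (M.det ^ 3 + 1) * h3

theorem sl34_card [Fintype F] (hF : Fintype.card F = 4) :
    Nat.card (Matrix.SpecialLinearGroup (Fin 3) F) = 60480 := by
  have h := card_SL_mul F 3 (by norm_num)
  rw [hF] at h
  simp [Fin.prod_univ_three] at h
  omega

theorem sl34_center_card [Fintype F] (hF : Fintype.card F = 4) :
    Nat.card (Subgroup.center (Matrix.SpecialLinearGroup (Fin 3) F)) = 3 := by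
  rw [card_center_SL F 3 (by norm_num), hF]
  rfl

theorem sl3_central_of_scalar (z : Matrix.SpecialLinearGroup (Fin 3) F) (c : F)
    (h : ∀ i j, (z : Matrix (Fin 3) (Fin 3) F) i j = if i = j then c else 0) :
    z ∈ Subgroup.center (Matrix.SpecialLinearGroup (Fin 3) F) := by
  rw [Subgroup.mem_center_iff]
  intro g
  apply Subtype.ext
  have hz : (z : Matrix (Fin 3) (Fin 3) F) = c • (1 : Matrix (Fin 3) (Fin 3) F) := by
    ext i j
    rw [h, Matrix.smul_apply, Matrix.one_apply]
    split_ifs <;> simp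
  rw [Matrix.SpecialLinearGroup.coe_mul, Matrix.SpecialLinearGroup.coe_mul, hz, Matrix.mul_smul,
    Matrix.smul_mul, mul_one, one_mul]

end F43

/-! The two generating permutations. -/

theorem m21U_lt : ∀ i, i < 24 → dgB 32 479663310730678034207776437455390752 i < 24 := by
  decide +kernel

theorem m21V_lt : ∀ i, i < 24 → dgB 32 691091782802736106340984326467422240 i < 24 := by
  decide +kernel

theorem m21W_lt : ∀ i, i < 24 → dgB 32 844019837588523898695742824130119712 i < 24 := by
  decide +kernel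

theorem m21U_inv : ∀ i, i < 24 → dgB 32 479663310730678034207776437455390752
    (dgB 32 479663310730678034207776437455390752 i) = i := by
  decide +kernel

theorem m21V_inv : ∀ i, i < 24 → dgB 32 844019837588523898695742824130119712
    (dgB 32 691091782802736106340984326467422240 i) = i := by
  decide +kernel

theorem m21W_inv : ∀ i, i < 24 → dgB 32 691091782802736106340984326467422240
    (dgB 32 844019837588523898695742824130119712 i) = i := by
  decide +kernel

theorem m21I_dg : ∀ i, i < 24 → dgB 32 984818244535754528103549039458486304 i = i := by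
  decide +kernel

theorem m21I_lt : 984818244535754528103549039458486304 < 32 ^ 24 := by
  norm_num

theorem m21U_fix : ∀ k, k < 3 → dgB 32 479663310730678034207776437455390752 k = k := by
  decide +kernel

theorem m21V_fix : ∀ k, k < 3 → dgB 32 691091782802736106340984326467422240 k = k := by
  decide +kernel

/-- The first generating permutation. -/
def m21σu : Equiv.Perm Cfsg.GolayPt :=
  permOfTab 479663310730678034207776437455390752 479663310730678034207776437455390752
    m21U_lt m21U_lt m21U_inv m21U_inv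

/-- The second generating permutation. -/
def m21σv : Equiv.Perm Cfsg.GolayPt :=
  permOfTab 691091782802736106340984326467422240 844019837588523898695742824130119712
    m21V_lt m21W_lt m21V_inv m21W_inv

theorem m21σu_mem : m21σu ∈ Cfsg.M24 :=
  mem_M24_of_rep (permOfTab_rep _ _ m21U_lt m21U_lt m21U_inv m21U_inv) (by decide +kernel)

theorem m21σv_mem : m21σv ∈ Cfsg.M24 :=
  mem_M24_of_rep (permOfTab_rep _ _ m21V_lt m21W_lt m21V_inv m21W_inv) (by decide +kernel)

theorem m21σu_coe (p : Cfsg.GolayPt) :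
    m21σu p = fdec 479663310730678034207776437455390752 p := rfl

theorem m21σv_coe (p : Cfsg.GolayPt) :
    m21σv p = fdec 691091782802736106340984326467422240 p := rfl

theorem m21σu_fix (k : ℕ) (hk : k < 3) : m21σu (gPt k) = gPt k := by
  rw [m21σu_coe, fdec_apply, gIdx_gPt (by omega), m21U_fix k hk]

theorem m21σv_fix (k : ℕ) (hk : k < 3) : m21σv (gPt k) = gPt k := by
  rw [m21σv_coe, fdec_apply, gIdx_gPt (by omega), m21V_fix k hk]

theorem fdec_id : fdec 984818244535754528103549039458486304 = 1 := by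
  funext p
  rw [fdec_apply, m21I_dg _ (gIdx_lt p), gPt_gIdx]
  rfl

/-- Conjugation carries the stabiliser of three points to the stabiliser of their images. -/
theorem stab3_conj {G α : Type*} [Group G] [MulAction G α] (γ : G) (a b c : α) :
    Nonempty (↥(MulAction.stabilizer G a ⊓ MulAction.stabilizer G b ⊓ MulAction.stabilizer G c) ≃*
      ↥(MulAction.stabilizer G (γ • a) ⊓ MulAction.stabilizer G (γ • b) ⊓
        MulAction.stabilizer G (γ • c))) := by
  have hinj : Function.Injective ((MulAut.conj γ : G ≃* G) : G →* G) := (MulAut.conj γ).injective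
  have h : (MulAction.stabilizer G a ⊓ MulAction.stabilizer G b ⊓ MulAction.stabilizer G c).map
      ((MulAut.conj γ : G ≃* G) : G →* G) = MulAction.stabilizer G (γ • a) ⊓
        MulAction.stabilizer G (γ • b) ⊓ MulAction.stabilizer G (γ • c) := by
    rw [Subgroup.map_inf_eq _ _ _ hinj, Subgroup.map_inf_eq _ _ _ hinj,
      MulAction.stabilizer_smul_eq_stabilizer_map_conj,
      MulAction.stabilizer_smul_eq_stabilizer_map_conj,
      MulAction.stabilizer_smul_eq_stabilizer_map_conj]
    rfl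
  exact ⟨((MulAut.conj γ : G ≃* G).subgroupMap _).trans (MulEquiv.subgroupCongr h)⟩

/-- Permutations of the 24 points as self-maps. -/
def permEnd24 : Equiv.Perm Cfsg.GolayPt →* Function.End Cfsg.GolayPt where
  toFun σ := (σ : Cfsg.GolayPt → Cfsg.GolayPt)
  map_one' := rfl
  map_mul' _ _ := rfl

theorem m21_val_lt24 : ∀ i, i < 60480 → ∀ t, t < 24 → dgB 32 (m21val i) t < 24 := by
  apply table_ind 60480 14448 (fun i => ∀ t, t < 24 → dgB 32 (m21val i) t < 24)
    m21nA m21nB m21par m21dep
  · intro t ht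
    rw [m21_root.2, m21I_dg t ht]
    exact ht
  · intro i hi h t ht
    rw [(m21_row i hi).val_nA, dgB_pcomp _ _ t ht]
    exact h _ (m21U_lt t ht)
  · intro i hi h t ht
    rw [(m21_row i hi).val_nB, dgB_pcomp _ _ t ht]
    exact h _ (m21V_lt t ht)
  · exact fun i hi hne => (m21_row i hi).par hne

theorem m21_base_card : Nat.card ↥(MulAction.stabilizer Cfsg.M24 (gPt 0) ⊓
    MulAction.stabilizer Cfsg.M24 (gPt 1) ⊓ MulAction.stabilizer Cfsg.M24 (gPt 2)) = 20160 := by
  have h01 : gPt 0 ≠ gPt 1 := by decide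
  have h02 : gPt 0 ≠ gPt 2 := by decide
  have h12 : gPt 1 ≠ gPt 2 := by decide
  have h := card_eq_orbit_mul_stab (G := Cfsg.M24)
    (MulAction.stabilizer Cfsg.M24 (gPt 0) ⊓ MulAction.stabilizer Cfsg.M24 (gPt 1)) (gPt 2)
    ((Finset.univ.erase (gPt 0)).erase (gPt 1)) (by
      intro g hg
      rw [Subgroup.mem_inf, MulAction.mem_stabilizer_iff, MulAction.mem_stabilizer_iff] at hg
      rw [Finset.mem_erase, Finset.mem_erase]
      refine ⟨?_, ?_, Finset.mem_univ _⟩
      · intro h1
        have h2 : g • gPt 2 = g • gPt 1 := h1.trans hg.2.symm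
        exact h12 (smul_left_cancel g h2).symm
      · intro h1
        have h2 : g • gPt 2 = g • gPt 0 := h1.trans hg.1.symm
        exact h02 (smul_left_cancel g h2).symm) (by
      intro δ hδ
      rw [Finset.mem_erase, Finset.mem_erase] at hδ
      obtain ⟨hδ1, hδ0, -⟩ := hδ
      obtain ⟨g, hg, hgx⟩ := M24_trans 3 (by norm_num)
        (fun i => if i = 0 then gPt 0 else if i = 1 then gPt 1 else δ) (by
          intro i hi j hj hij
          interval_cases i <;> interval_cases j <;> simp_all)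
      have e0 : g (gPt 0) = gPt 0 := by simpa using hgx 0 (by norm_num)
      have e1 : g (gPt 1) = gPt 1 := by simpa using hgx 1 (by norm_num)
      have e2 : g (gPt 2) = δ := by simpa using hgx 2 (by norm_num)
      refine ⟨⟨g, hg⟩, ?_, e2⟩
      rw [Subgroup.mem_inf, MulAction.mem_stabilizer_iff, MulAction.mem_stabilizer_iff]
      exact ⟨e0, e1⟩)
  rw [M24_stab2_card _ _ h01] at h
  have hc : ((Finset.univ.erase (gPt 0)).erase (gPt 1)).card = 22 := by
    rw [Finset.card_erase_of_mem (Finset.mem_erase.mpr ⟨h01.symm, Finset.mem_univ _⟩),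
      Finset.card_erase_of_mem (Finset.mem_univ _), Finset.card_univ, card_golayPt]
  rw [hc] at h
  omega

section Main

variable {F : Type*} [Field F] [Fintype F]

theorem m21_detA [CharP F 2] (w : F) (hw : w ^ 2 = w + 1) : (md43 w 65797).det = 1 :=
  det3_of_sq _ (by rw [← md43_mul w hw, m21_a_sq, md43_one])

theorem m21_detB [CharP F 2] (hF : Fintype.card F = 4) (w : F) (hw : w ^ 2 = w + 1) :
    (md43 w 114832).det = 1 :=
  det3_of_pow7 hF _ (by
    rw [← md43_mul w hw, ← md43_mul w hw, ← md43_mul w hw, ← md43_mul w hw, ← md43_mul w hw,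
      ← md43_mul w hw, m21_b_pow, md43_one])

/-- The elements of `SL₃(4)` listed by the table. -/
theorem m21_el [CharP F 2] (hF : Fintype.card F = 4) (w : F) (hw : w ^ 2 = w + 1) :
    ∃ el : ℕ → Matrix.SpecialLinearGroup (Fin 3) F,
      (∀ i, i < 60480 → ((el i : Matrix.SpecialLinearGroup (Fin 3) F) :
        Matrix (Fin 3) (Fin 3) F) = md43 w (m21key i)) ∧
      (∀ g, ∃ i, i < 60480 ∧ el i = g) ∧
      (∀ i j, i < 60480 → j < 60480 → el i = el j → i = j) := by
  classical
  let S : Submonoid (Matrix (Fin 3) (Fin 3) F) :=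
    { carrier := {M | M.det = 1}
      one_mem' := Matrix.det_one
      mul_mem' := by
        intro a b ha hb
        show (a * b).det = 1
        rw [Matrix.det_mul, ha, hb, mul_one] }
  have hmemA : md43 w 65797 ∈ S := m21_detA w hw
  have hmemB : md43 w 114832 ∈ S := m21_detB hF w hw
  have hmem : ∀ i, i < 60480 → md43 w (m21key i) ∈ S :=
    table_mem S 60480 14448 (fun i => md43 w (m21key i))
      m21nA m21nB m21par m21dep _ _ hmemA hmemB
      (by show md43 w (m21key 14448) = 1; rw [m21_root.1, md43_one])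
      (fun i hi => by
        show md43 w (m21key (m21nA i)) = md43 w (m21key i) * md43 w 65797
        rw [(m21_row i hi).key_nA, md43_mul w hw])
      (fun i hi => by
        show md43 w (m21key (m21nB i)) = md43 w (m21key i) * md43 w 114832
        rw [(m21_row i hi).key_nB, md43_mul w hw])
      (fun i hi hne => (m21_row i hi).par hne)
  have hex : ∀ i, ∃ g : Matrix.SpecialLinearGroup (Fin 3) F, i < 60480 →
      (g : Matrix (Fin 3) (Fin 3) F) = md43 w (m21key i) := by
    intro i
    by_cases hi : i < 60480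
    · exact ⟨⟨md43 w (m21key i), hmem i hi⟩, fun _ => rfl⟩
    · exact ⟨1, fun h => absurd h hi⟩
  choose el hel using hex
  have helinj : ∀ i j, i < 60480 → j < 60480 → el i = el j → i = j := by
    intro i j hi hj h
    have h1 : md43 w (m21key i) = md43 w (m21key j) := by rw [← hel i hi, ← hel j hj, h]
    have h2 := md43_inj w hw _ _ (m21_row i hi).key_lt (m21_row j hj).key_lt h1
    by_contra hne
    rcases Nat.lt_or_gt_of_ne hne with h3 | h3
    · exact absurd h2 (Nat.ne_of_lt (m21_key_mono j i h3 hj))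
    · exact absurd h2.symm (Nat.ne_of_lt (m21_key_mono i j h3 hi))
  refine ⟨el, hel, ?_, helinj⟩
  have hcard := sl34_card hF
  haveI : Finite (Matrix.SpecialLinearGroup (Fin 3) F) :=
    Nat.finite_of_card_ne_zero (by rw [hcard]; norm_num)
  have hf : Function.Injective (fun i : Fin 60480 => el i) :=
    fun i j h => Fin.ext (helinj i j i.isLt j.isLt h)
  have hbij := hf.bijective_of_nat_card_le (by rw [hcard, Nat.card_fin])
  intro g
  obtain ⟨i, hi⟩ := hbij.2 g
  exact ⟨i, i.isLt, hi⟩

/-- The homomorphism of `SL₃(4)` to the self-maps of the 24 points given by the table. -/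
theorem m21_phi [CharP F 2] (hF : Fintype.card F = 4) (w : F) (hw : w ^ 2 = w + 1) :
    ∃ (el : ℕ → Matrix.SpecialLinearGroup (Fin 3) F)
      (φ : Matrix.SpecialLinearGroup (Fin 3) F →* Function.End Cfsg.GolayPt)
      (a' b' : Matrix.SpecialLinearGroup (Fin 3) F),
      (∀ i, i < 60480 → ((el i : Matrix.SpecialLinearGroup (Fin 3) F) :
        Matrix (Fin 3) (Fin 3) F) = md43 w (m21key i)) ∧
      (∀ g, ∃ i, i < 60480 ∧ el i = g) ∧ el 14448 = 1 ∧
      (∀ i, i < 60480 → φ (el i) = fdec (m21val i)) ∧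
      φ a' = fdec 479663310730678034207776437455390752 ∧
      φ b' = fdec 691091782802736106340984326467422240 ∧
      (∀ g, g ∈ Submonoid.closure ({a', b'} : Set (Matrix.SpecialLinearGroup (Fin 3) F))) := by
  obtain ⟨el, hel, hsurj, hinj⟩ := m21_el hF w hw
  have hel1 : el 14448 = 1 := by
    apply Subtype.ext
    rw [hel _ (by norm_num), m21_root.1, md43_one]
    rfl
  let a' : Matrix.SpecialLinearGroup (Fin 3) F := ⟨md43 w 65797, m21_detA w hw⟩
  let b' : Matrix.SpecialLinearGroup (Fin 3) F := ⟨md43 w 114832, m21_detB hF w hw⟩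
  obtain ⟨φ, h1, h2, h3, h4⟩ := table_hom 60480 14448 el (fun i => fdec (m21val i))
    m21nA m21nB m21par m21dep a' b' (fdec 479663310730678034207776437455390752)
    (fdec 691091782802736106340984326467422240) hsurj hinj
    (by norm_num) hel1
    (by show fdec (m21val 14448) = 1; rw [m21_root.2, fdec_id])
    (fun i hi => ⟨(m21_row i hi).nA_lt, by
        apply Subtype.ext
        rw [hel _ (m21_row i hi).nA_lt, (m21_row i hi).key_nA, md43_mul w hw, ← hel i hi]
        rfl, by
        show fdec (m21val (m21nA i)) = fdec (m21val i) * fdec 479663310730678034207776437455390752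
        rw [(m21_row i hi).val_nA, fdec_pcomp _ _ m21U_lt]⟩)
    (fun i hi => ⟨(m21_row i hi).nB_lt, by
        apply Subtype.ext
        rw [hel _ (m21_row i hi).nB_lt, (m21_row i hi).key_nB, md43_mul w hw, ← hel i hi]
        rfl, by
        show fdec (m21val (m21nB i)) = fdec (m21val i) * fdec 691091782802736106340984326467422240
        rw [(m21_row i hi).val_nB, fdec_pcomp _ _ m21V_lt]⟩)
    (fun i hi hne => (m21_row i hi).par hne)
  exact ⟨el, φ, a', b', hel, hsurj, hel1, h1, h2, h3, h4⟩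

/-- The stabiliser of the points `0, 1, 2` is `PSL₃(4)`. -/
theorem m21_base (hF : Fintype.card F = 4) :
    Nonempty (↥(MulAction.stabilizer Cfsg.M24 (gPt 0) ⊓ MulAction.stabilizer Cfsg.M24 (gPt 1) ⊓
      MulAction.stabilizer Cfsg.M24 (gPt 2)) ≃* Matrix.ProjectiveSpecialLinearGroup (Fin 3) F) := by
  classical
  haveI := f4_charP hF
  obtain ⟨w, hw⟩ := f4_omega hF
  obtain ⟨el, φ, a', b', hel, hsurj, hel1, hφel, hφa, hφb, hgen⟩ := m21_phi hF w hw
  have hmemS : ∀ σ (hσ : σ ∈ Cfsg.M24), (∀ k, k < 3 → σ (gPt k) = gPt k) →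
      (⟨σ, hσ⟩ : ↥Cfsg.M24) ∈ MulAction.stabilizer Cfsg.M24 (gPt 0) ⊓
        MulAction.stabilizer Cfsg.M24 (gPt 1) ⊓ MulAction.stabilizer Cfsg.M24 (gPt 2) := by
    intro σ hσ hfix
    rw [Subgroup.mem_inf, Subgroup.mem_inf, MulAction.mem_stabilizer_iff,
      MulAction.mem_stabilizer_iff, MulAction.mem_stabilizer_iff]
    exact ⟨⟨hfix 0 (by norm_num), hfix 1 (by norm_num)⟩, hfix 2 (by norm_num)⟩
  let sa : ↥(MulAction.stabilizer Cfsg.M24 (gPt 0) ⊓ MulAction.stabilizer Cfsg.M24 (gPt 1) ⊓
      MulAction.stabilizer Cfsg.M24 (gPt 2)) := ⟨⟨m21σu, m21σu_mem⟩, hmemS _ _ m21σu_fix⟩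
  let sb : ↥(MulAction.stabilizer Cfsg.M24 (gPt 0) ⊓ MulAction.stabilizer Cfsg.M24 (gPt 1) ⊓
      MulAction.stabilizer Cfsg.M24 (gPt 2)) := ⟨⟨m21σv, m21σv_mem⟩, hmemS _ _ m21σv_fix⟩
  let ι : ↥(MulAction.stabilizer Cfsg.M24 (gPt 0) ⊓ MulAction.stabilizer Cfsg.M24 (gPt 1) ⊓
      MulAction.stabilizer Cfsg.M24 (gPt 2)) →* Function.End Cfsg.GolayPt :=
    permEnd24.comp ((Cfsg.M24).subtype.comp (Subgroup.subtype _))
  have hι : Function.Injective ι := by
    intro x y h
    apply Subtype.ext
    apply Subtype.ext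
    exact DFunLike.coe_injective h
  have hrange : ∀ x : Matrix.SpecialLinearGroup (Fin 3) F, ∃ s, ι s = φ x := by
    intro x
    have hx := hgen x
    induction hx using Submonoid.closure_induction with
    | mem y hy =>
      rcases hy with rfl | rfl
      · exact ⟨sa, by rw [hφa]; rfl⟩
      · exact ⟨sb, by rw [hφb]; rfl⟩
    | one => exact ⟨1, by rw [map_one, map_one]⟩
    | mul y z _ _ hy hz =>
      obtain ⟨s, hs⟩ := hy
      obtain ⟨t, ht⟩ := hz
      exact ⟨s * t, by rw [map_mul, map_mul, hs, ht]⟩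
  choose ψ₀ hψ₀ using hrange
  let ψ : Matrix.SpecialLinearGroup (Fin 3) F →*
      ↥(MulAction.stabilizer Cfsg.M24 (gPt 0) ⊓ MulAction.stabilizer Cfsg.M24 (gPt 1) ⊓
        MulAction.stabilizer Cfsg.M24 (gPt 2)) :=
    { toFun := ψ₀
      map_one' := hι (by rw [hψ₀, map_one, map_one])
      map_mul' := fun x y => hι (by rw [hψ₀, map_mul, map_mul, hψ₀, hψ₀]) }
  have hψ : ∀ x, ι (ψ x) = φ x := hψ₀
  have hker : ∀ x, ψ x = 1 → x = el 14448 ∨ x = el 29872 ∨ x = el 45296 := by
    intro x hx
    obtain ⟨i, hi, rfl⟩ := hsurj x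
    have h1 : fdec (m21val i) = 1 := by
      rw [← hφel i hi, ← hψ, hx, map_one]
    have h2 : m21val i = 984818244535754528103549039458486304 := by
      apply digitsB_inj 32 24 _ _ (lt_of_lt_of_eq (m21_row i hi).val_lt (by norm_num)) m21I_lt
      intro t ht
      rw [m21I_dg t ht]
      have h3 := congrFun h1 (gPt t)
      rw [fdec_apply, gIdx_gPt ht] at h3
      have h4 := congrArg gIdx h3
      rw [gIdx_gPt (m21_val_lt24 i hi t ht)] at h4
      rw [h4]
      exact gIdx_gPt ht
    rcases (m21_row i hi).ker h2 with h3 | h3 | h3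
    · left; rw [h3]
    · right; left; rw [h3]
    · right; right; rw [h3]
  have hsc : ∀ c, c < 4 → ∀ i, i < 60480 → m21key i = c * 65793 →
      el i ∈ Subgroup.center (Matrix.SpecialLinearGroup (Fin 3) F) := by
    intro c hc i hi hk
    apply sl3_central_of_scalar _ (dec4 w c)
    intro a b
    rw [hel i hi, hk]
    exact md43_scalar w c hc a b
  have hcen : ∀ x, ψ x = 1 → x ∈ Subgroup.center (Matrix.SpecialLinearGroup (Fin 3) F) := by
    intro x hx
    rcases hker x hx with h | h | h
    · rw [h, hel1]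
      exact Subgroup.one_mem _
    · rw [h]
      exact hsc 2 (by norm_num) _ (by norm_num) (by rw [m21_scal.1])
    · rw [h]
      exact hsc 3 (by norm_num) _ (by norm_num) (by rw [m21_scal.2])
  have hSL := sl34_card hF
  have hS : Nat.card ↥(MulAction.stabilizer Cfsg.M24 (gPt 0) ⊓
      MulAction.stabilizer Cfsg.M24 (gPt 1) ⊓ MulAction.stabilizer Cfsg.M24 (gPt 2)) = 20160 :=
    m21_base_card
  haveI : Finite (Matrix.SpecialLinearGroup (Fin 3) F) :=
    Nat.finite_of_card_ne_zero (by rw [hSL]; norm_num)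
  haveI : Finite ↥(MulAction.stabilizer Cfsg.M24 (gPt 0) ⊓
      MulAction.stabilizer Cfsg.M24 (gPt 1) ⊓ MulAction.stabilizer Cfsg.M24 (gPt 2)) :=
    Nat.finite_of_card_ne_zero (by rw [hS]; norm_num)
  have hkercard : Nat.card ψ.ker ≤ 3 := by
    have hsub : (ψ.ker : Set (Matrix.SpecialLinearGroup (Fin 3) F)) ⊆
        {el 14448, el 29872, el 45296} := by
      intro x hx
      rcases hker x hx with h | h | h
      · rw [h]
        exact Set.mem_insert _ _
      · rw [h]
        exact Set.mem_insert_of_mem _ (Set.mem_insert _ _)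
      · rw [h]
        exact Set.mem_insert_of_mem _ (Set.mem_insert_of_mem _ rfl)
    have h1 := Set.ncard_le_ncard hsub (Set.toFinite _)
    have h2 : Set.ncard ({el 14448, el 29872, el 45296} :
        Set (Matrix.SpecialLinearGroup (Fin 3) F)) ≤ 3 := by
      have e1 := Set.ncard_insert_le (el 14448)
        ({el 29872, el 45296} : Set (Matrix.SpecialLinearGroup (Fin 3) F))
      have e2 := Set.ncard_insert_le (el 29872)
        ({el 45296} : Set (Matrix.SpecialLinearGroup (Fin 3) F))
      rw [Set.ncard_singleton] at e2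
      omega
    exact h1.trans h2
  have h1 : Nat.card ψ.ker * Nat.card ψ.range =
      Nat.card (Matrix.SpecialLinearGroup (Fin 3) F) := by
    rw [← Subgroup.index_ker]
    exact Subgroup.card_mul_index _
  have h2 : Nat.card ψ.range ≤ Nat.card ↥(MulAction.stabilizer Cfsg.M24 (gPt 0) ⊓
      MulAction.stabilizer Cfsg.M24 (gPt 1) ⊓ MulAction.stabilizer Cfsg.M24 (gPt 2)) :=
    Subgroup.card_le_card_group _
  have h3 : Nat.card ψ.ker * Nat.card ψ.range ≤ 3 * Nat.card ψ.range :=
    Nat.mul_le_mul_right _ hkercard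
  have hr : Nat.card ψ.range = 20160 := by omega
  have hk3 : Nat.card ψ.ker = 3 := by
    rw [hr, hSL] at h1
    omega
  have hsurjψ : Function.Surjective ψ := by
    have h4 : ψ.range = ⊤ := Subgroup.eq_top_of_card_eq _ (by rw [hr, hS])
    exact MonoidHom.range_eq_top.mp h4
  have hkc : Subgroup.center (Matrix.SpecialLinearGroup (Fin 3) F) = ψ.ker := by
    symm
    apply Subgroup.eq_of_le_of_card_ge
    · intro x hx
      exact hcen x (MonoidHom.mem_ker.mp hx)
    · rw [sl34_center_card hF, hk3]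
  exact ⟨((QuotientGroup.quotientMulEquivOfEq hkc).trans
    (QuotientGroup.quotientKerEquivOfSurjective ψ hsurjψ)).symm⟩

/-- The stabiliser of three points in `M₂₄` is `PSL₃(4)`. -/
theorem m21_main (p q r : Cfsg.GolayPt) (hpq : p ≠ q) (hpr : p ≠ r) (hqr : q ≠ r)
    (hF : Fintype.card F = 4) :
    Nonempty (↥(MulAction.stabilizer Cfsg.M24 p ⊓ MulAction.stabilizer Cfsg.M24 q ⊓
      MulAction.stabilizer Cfsg.M24 r) ≃* Matrix.ProjectiveSpecialLinearGroup (Fin 3) F) := by
  obtain ⟨g, hg, hgx⟩ := M24_trans 3 (by norm_num)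
    (fun i => if i = 0 then p else if i = 1 then q else r) (by
      intro i hi j hj hij
      interval_cases i <;> interval_cases j <;> simp_all)
  have h0 : (⟨g, hg⟩ : ↥Cfsg.M24) • gPt 0 = p := by simpa using hgx 0 (by norm_num)
  have h1 : (⟨g, hg⟩ : ↥Cfsg.M24) • gPt 1 = q := by simpa using hgx 1 (by norm_num)
  have h2 : (⟨g, hg⟩ : ↥Cfsg.M24) • gPt 2 = r := by simpa using hgx 2 (by norm_num)
  obtain ⟨e⟩ := stab3_conj (⟨g, hg⟩ : ↥Cfsg.M24) (gPt 0) (gPt 1) (gPt 2)
  rw [h0, h1, h2] at e
  obtain ⟨e0⟩ := m21_base hF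
  exact ⟨e.symm.trans e0⟩

end Main

end Cfsg.Agent.Helper2
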