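import Mathlib
import Cfsg.Agent.Helper11.CycNormal
import Cfsg.Agent.Helper24.NormalEA
import Cfsg.Agent.Helper4.CardMul
import Cfsg.Agent.Helper2.Huppert

set_option autoImplicit false

namespace Cfsg.Agent.Helper2

/-- Elements of a group of exponent two commute. -/
theorem nf_comm_of_sq {G : Type*} [Group G] (a b : G) (ha : a ^ 2 = 1) (hb : b ^ 2 = 1)
    (hab : (a * b) ^ 2 = 1) : a * b = b * a := by
  rw [pow_two] at ha hb hab
  have ha' : a⁻¹ = a := inv_eq_of_mul_eq_one_right ha
  have hb' : b⁻¹ = b := inv_eq_of_mul_eq_one_right hb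
  have hab' : (a * b)⁻¹ = a * b := inv_eq_of_mul_eq_one_right hab
  rw [mul_inv_rev, ha', hb'] at hab'
  exact hab'.symm

/-- An element commuting with a subgroup normalizes it. -/
theorem nf_zpowers_le_normalizer {G : Type*} [Group G] (A : Subgroup G) (t : G)
    (hc : ∀ a ∈ A, t * a = a * t) : Subgroup.zpowers t ≤ Subgroup.normalizer (A : Set G) := by
  rw [Subgroup.zpowers_le, Subgroup.mem_normalizer_iff]
  intro a
  constructor
  · intro ha
    rw [hc a ha, mul_inv_cancel_right]; exact ha
  · intro ha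
    have h1 := hc _ ha
    have h2 : t⁻¹ * (t * a * t⁻¹) * t = t * a * t⁻¹ := by
      rw [mul_assoc, ← h1, inv_mul_cancel_left]
    have h3 : t⁻¹ * (t * a * t⁻¹) * t = a := by group
    rw [h3] at h2
    rw [h2]; exact ha

/-- A finite group with a cyclic subgroup of index two has no elementary abelian subgroup of
order `8`. -/
theorem nf_no_E8 {T : Type*} [Group T] [Finite T] (c : T)
    (hc : orderOf c * 2 = Nat.card T) (E : Subgroup T) (hE : Nat.card E = 8)
    (hexp : ∀ e ∈ E, e ^ 2 = 1) : False := by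
  have hidx : (Subgroup.zpowers c).index = 2 := by
    have h1 := (Subgroup.zpowers c).index_mul_card
    rw [Nat.card_zpowers, ← hc] at h1
    have h0 : 0 < orderOf c := orderOf_pos c
    have h2 : (Subgroup.zpowers c).index * orderOf c = 2 * orderOf c := by rw [h1, mul_comm]
    exact Nat.eq_of_mul_eq_mul_right h0 h2
  haveI : (Subgroup.zpowers c).Normal := Subgroup.normal_of_index_eq_two hidx
  have h2 : (Subgroup.zpowers c).relIndex E ∣ 2 := by
    rw [← hidx]; exact Subgroup.relIndex_dvd_index_of_normal _ _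
  have h3 : Nat.card (E ⊓ Subgroup.zpowers c : Subgroup T) * (Subgroup.zpowers c).relIndex E
      = Nat.card E := by
    have h4 := Subgroup.relIndex_mul_relIndex (H := (⊥ : Subgroup T))
      (K := E ⊓ Subgroup.zpowers c) (L := E) bot_le inf_le_left
    rw [Subgroup.relIndex_bot_left, Subgroup.relIndex_bot_left, Subgroup.inf_relIndex_left] at h4
    exact h4
  haveI : IsCyclic (E ⊓ Subgroup.zpowers c : Subgroup T) :=
    Subgroup.isCyclic_of_le (inf_le_right : E ⊓ Subgroup.zpowers c ≤ Subgroup.zpowers c)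
  obtain ⟨g, hg⟩ := IsCyclic.exists_generator (α := (E ⊓ Subgroup.zpowers c : Subgroup T))
  have h5 : Nat.card (E ⊓ Subgroup.zpowers c : Subgroup T) = orderOf g :=
    (orderOf_eq_card_of_forall_mem_zpowers hg).symm
  have h6 : g ^ 2 = 1 := by
    apply Subtype.ext
    rw [Subgroup.coe_pow]
    exact hexp _ g.2.1
  have h7 : orderOf g ∣ 2 := orderOf_dvd_of_pow_eq_one h6
  have h8 : orderOf g ≤ 2 := Nat.le_of_dvd (by norm_num) h7
  have h9 : (Subgroup.zpowers c).relIndex E ≤ 2 := Nat.le_of_dvd (by norm_num) h2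
  rw [h5, hE] at h3
  nlinarith

/-- Elements of a cyclic group generated by an involution. -/
theorem nf_mem_zpowers_invol {G : Type*} [Group G] (z : G) (hz : z ^ 2 = 1) (w : G)
    (hw : w ∈ Subgroup.zpowers z) : w = 1 ∨ w = z := by
  obtain ⟨j, rfl⟩ := Subgroup.mem_zpowers_iff.mp hw
  have hz' : z ^ (2 : ℤ) = 1 := by exact_mod_cast hz
  rcases Int.even_or_odd j with ⟨k, rfl⟩ | ⟨k, rfl⟩
  · left
    rw [← two_mul, zpow_mul, hz', one_zpow]
  · right
    rw [zpow_add, zpow_mul, hz', one_zpow, one_mul, zpow_one]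

/-- A finite `2`-group containing an elementary abelian subgroup of order `8` has a central
involution `z` and an involution `u ∉ ⟨z⟩` whose conjugates are `u` and `z * u`. -/
theorem nf_exists_zu {S : Type*} [Group S] [Finite S] (hS : IsPGroup 2 S)
    (E : Subgroup S) (hE : Nat.card E = 8) (hexp : ∀ e ∈ E, e ^ 2 = 1) :
    ∃ z u : S, (∀ g : S, g * z = z * g) ∧ z ^ 2 = 1 ∧ z ≠ 1 ∧ u ^ 2 = 1 ∧
      u ∉ Subgroup.zpowers z ∧ ∀ g : S, g * u * g⁻¹ = u ∨ g * u * g⁻¹ = z * u := by
  haveI : Fact (Nat.Prime 2) := ⟨Nat.prime_two⟩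
  by_cases h : ∀ A : Subgroup S, A.Normal → IsMulCommutative A → IsCyclic A
  · exfalso
    have hEc : IsMulCommutative E :=
      ⟨⟨fun a b => Subtype.ext (nf_comm_of_sq (a : S) (b : S) (hexp _ a.2) (hexp _ b.2)
        (hexp _ (E.mul_mem a.2 b.2)))⟩⟩
    have hEnc : ¬ IsCyclic E := by
      intro hc
      obtain ⟨g, hg⟩ := IsCyclic.exists_generator (α := E)
      have h5 : Nat.card E = orderOf g := (orderOf_eq_card_of_forall_mem_zpowers hg).symm
      have h6 : g ^ 2 = 1 := by
        apply Subtype.ext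
        rw [Subgroup.coe_pow]
        exact hexp _ g.2
      have h8 : orderOf g ≤ 2 := Nat.le_of_dvd (by norm_num) (orderOf_dvd_of_pow_eq_one h6)
      omega
    obtain ⟨-, hcases⟩ := Cfsg.Agent.Helper11.cnas_main 2 hS h ⟨E, hEc, hEnc⟩
    rcases hcases with ⟨n, ⟨e⟩⟩ | ⟨n, hn, ⟨e⟩⟩ | ⟨n, hn, hcard, x, y, hx, hy, hxy⟩
    · have hn0 : n ≠ 0 := by
        rintro rfl
        have h1 := orderOf_pos (e.symm (QuaternionGroup.a 1))
        rw [MulEquiv.orderOf_eq, QuaternionGroup.orderOf_a_one] at h1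
        omega
      haveI : NeZero n := ⟨hn0⟩
      apply nf_no_E8 (e.symm (QuaternionGroup.a 1)) _ E hE hexp
      rw [MulEquiv.orderOf_eq, QuaternionGroup.orderOf_a_one, Nat.card_congr e.toEquiv,
        Nat.card_eq_fintype_card, QuaternionGroup.card]
      ring
    · apply nf_no_E8 (e.symm (DihedralGroup.r 1)) _ E hE hexp
      rw [MulEquiv.orderOf_eq, DihedralGroup.orderOf_r_one, Nat.card_congr e.toEquiv,
        DihedralGroup.nat_card]
      ring
    · apply nf_no_E8 x _ E hE hexp
      rw [hx, hcard, pow_succ]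
  · push Not at h
    obtain ⟨A, hAn, hAc, hAnc⟩ := h
    have hAcomm : ∀ a ∈ A, ∀ b ∈ A, a * b = b * a := by
      intro a ha b hb
      have := hAc.is_comm.comm ⟨a, ha⟩ ⟨b, hb⟩
      exact congrArg Subtype.val this
    let B : Subgroup S :=
      { carrier := {a | a ∈ A ∧ a ^ 2 = 1}
        one_mem' := ⟨A.one_mem, one_pow _⟩
        mul_mem' := by
          rintro a b ⟨ha, ha'⟩ ⟨hb, hb'⟩
          refine ⟨A.mul_mem ha hb, ?_⟩
          have hc : Commute a b := hAcomm a ha b hb
          rw [hc.mul_pow, ha', hb', one_mul]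
        inv_mem' := by
          rintro a ⟨ha, ha'⟩
          exact ⟨A.inv_mem ha, by rw [inv_pow, ha', inv_one]⟩ }
    have hBn : B.Normal :=
      ⟨fun n hn g => ⟨hAn.conj_mem n hn.1 g, by rw [conj_pow, hn.2, mul_one, mul_inv_cancel]⟩⟩
    have hBexp : ∀ b ∈ B, b ^ 2 = 1 := fun b hb => hb.2
    have hBA : B ≤ A := fun b hb => hb.1
    have hBcard : 2 < Nat.card B := by
      by_contra hle
      push Not at hle
      apply hAnc
      refine Cfsg.Agent.Helper24.isCyclic_of_card_omega_le (p := 2) (hS.to_subgroup A)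
        (fun a b => Subtype.ext (hAcomm a a.2 b b.2)) (B.subgroupOf A) (fun x => ?_) ?_
      · rw [Subgroup.mem_subgroupOf]
        constructor
        · intro hx
          apply Subtype.ext
          rw [Subgroup.coe_pow]
          exact hx.2
        · intro hx
          refine ⟨x.2, ?_⟩
          have := congrArg Subtype.val hx
          rwa [Subgroup.coe_pow] at this
      · rw [Nat.card_congr (Subgroup.subgroupOfEquivOfLe hBA).toEquiv]
        exact hle
    have hB1 : B ≠ ⊥ := by
      intro hb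
      rw [hb, Subgroup.card_bot] at hBcard
      omega
    obtain ⟨z, hzB, hz1, hzc⟩ := hup_exists_central (p := 2) (⊤ : Subgroup S) B
      (hS.to_subgroup _) le_top (fun g _ y hy => hBn.conj_mem y hy g) hB1
    have hzcent : ∀ g : S, g * z = z * g := fun g => hzc g (Subgroup.mem_top g)
    have hz2 : z ^ 2 = 1 := hBexp z hzB
    haveI hZn : (Subgroup.zpowers z).Normal := by
      constructor
      intro x hx g
      obtain ⟨j, rfl⟩ := Subgroup.mem_zpowers_iff.mp hx
      have hc : Commute g (z ^ j) := Commute.zpow_right (hzcent g) j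
      rw [hc.eq, mul_inv_cancel_right]
      exact Subgroup.zpow_mem_zpowers z j
    have hZcard : Nat.card (Subgroup.zpowers z) = 2 := by
      rw [Nat.card_zpowers]; exact orderOf_eq_prime hz2 hz1
    have hKb : B.map (QuotientGroup.mk' (Subgroup.zpowers z)) ≠ ⊥ := by
      intro hb
      have hle : B ≤ Subgroup.zpowers z := by
        intro b hbB
        have h1 : QuotientGroup.mk' (Subgroup.zpowers z) b ∈
            B.map (QuotientGroup.mk' (Subgroup.zpowers z)) := Subgroup.mem_map_of_mem _ hbB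
        rw [hb, Subgroup.mem_bot] at h1
        exact (QuotientGroup.eq_one_iff _).mp h1
      have := Subgroup.card_le_of_le hle
      omega
    have hBbn : (B.map (QuotientGroup.mk' (Subgroup.zpowers z))).Normal :=
      hBn.map _ (QuotientGroup.mk'_surjective _)
    obtain ⟨ub, hubK, hub1, hubc⟩ := hup_exists_central (p := 2)
      (⊤ : Subgroup (S ⧸ Subgroup.zpowers z)) (B.map (QuotientGroup.mk' (Subgroup.zpowers z)))
      ((hS.to_quotient _).to_subgroup _) le_top (fun g _ y hy => hBbn.conj_mem y hy g) hKb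
    obtain ⟨u, huB, rfl⟩ := hubK
    have huZ : u ∉ Subgroup.zpowers z := fun hh => hub1 ((QuotientGroup.eq_one_iff _).mpr hh)
    refine ⟨z, u, hzcent, hz2, hz1, hBexp u huB, huZ, ?_⟩
    intro g
    have h1 : g * u * g⁻¹ * u⁻¹ ∈ Subgroup.zpowers z := by
      rw [← QuotientGroup.eq_one_iff]
      have h2 := hubc (QuotientGroup.mk' _ g) (Subgroup.mem_top _)
      show QuotientGroup.mk' (Subgroup.zpowers z) (g * u * g⁻¹ * u⁻¹) = 1
      rw [map_mul, map_mul, map_mul, map_inv, map_inv, h2, mul_inv_cancel_right, mul_inv_cancel]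
    rcases nf_mem_zpowers_invol z hz2 _ h1 with h3 | h3
    · left
      calc g * u * g⁻¹ = g * u * g⁻¹ * u⁻¹ * u := by group
        _ = u := by rw [h3, one_mul]
    · right
      calc g * u * g⁻¹ = g * u * g⁻¹ * u⁻¹ * u := by group
        _ = z * u := by rw [h3]

/-- Adjoining a commuting involution to a subgroup of exponent two keeps exponent two. -/
theorem nf_sup_exp {G : Type*} [Group G] (A : Subgroup G) (t : G) (hA : ∀ a ∈ A, a ^ 2 = 1)
    (ht : t ^ 2 = 1) (hc : ∀ a ∈ A, t * a = a * t) :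
    ∀ w ∈ Subgroup.zpowers t ⊔ A, w ^ 2 = 1 := by
  intro w hw
  have hLE := nf_zpowers_le_normalizer A t hc
  have hset := Subgroup.coe_mul_of_left_le_normalizer_right (Subgroup.zpowers t) A hLE
  have hw' : w ∈ ((Subgroup.zpowers t ⊔ A : Subgroup G) : Set G) := hw
  rw [hset] at hw'
  obtain ⟨h, hh, a, ha, rfl⟩ := Set.mem_mul.mp hw'
  obtain ⟨j, rfl⟩ := Subgroup.mem_zpowers_iff.mp hh
  have hcj : Commute (t ^ j) a := Commute.zpow_left (hc a ha) j
  have ht' : (t ^ j) ^ 2 = 1 := by
    rw [← zpow_natCast, ← zpow_mul, mul_comm, zpow_mul, zpow_natCast, ht, one_zpow]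
  rw [hcj.mul_pow, ht', hA a ha, one_mul]

/-- Adjoining a commuting involution outside a subgroup doubles the order. -/
theorem nf_sup_card {G : Type*} [Group G] [Finite G] (A : Subgroup G) (t : G)
    (ht : t ^ 2 = 1) (hc : ∀ a ∈ A, t * a = a * t) (htA : t ∉ A) :
    Nat.card (Subgroup.zpowers t ⊔ A : Subgroup G) = 2 * Nat.card A := by
  have hLE := nf_zpowers_le_normalizer A t hc
  have h1 := Cfsg.Agent.Helper4.card_sup_mul_card_inf (Subgroup.zpowers t) A hLE
  have ht1 : t ≠ 1 := fun h => htA (h ▸ A.one_mem)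
  have h2 : Nat.card (Subgroup.zpowers t) = 2 := by
    rw [Nat.card_zpowers]; exact orderOf_eq_prime ht ht1
  have h3 : Subgroup.zpowers t ⊓ A = ⊥ := by
    rw [eq_bot_iff]
    intro w hw
    rcases nf_mem_zpowers_invol t ht w hw.1 with h | h
    · rw [Subgroup.mem_bot]; exact h
    · exact absurd (h ▸ hw.2) htA
  rw [h3, Subgroup.card_bot, mul_one, h2] at h1
  exact h1

/-- Something commuting with `t` and with `A` commutes with `⟨t⟩ ⊔ A`. -/
theorem nf_sup_comm {G : Type*} [Group G] (A : Subgroup G) (t y : G) (hyt : y * t = t * y)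
    (hyA : ∀ a ∈ A, y * a = a * y) : ∀ w ∈ Subgroup.zpowers t ⊔ A, y * w = w * y := by
  have hle : Subgroup.zpowers t ⊔ A ≤ Subgroup.centralizer ({y} : Set G) := by
    apply sup_le
    · rw [Subgroup.zpowers_le, Subgroup.mem_centralizer_iff]
      intro h hh
      rw [Set.mem_singleton_iff] at hh
      rw [hh]; exact hyt
    · intro a ha
      rw [Subgroup.mem_centralizer_iff]
      intro h hh
      rw [Set.mem_singleton_iff] at hh
      rw [hh]; exact hyA a ha
  intro w hw
  exact Subgroup.mem_centralizer_iff.mp (hle hw) y rfl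

end Cfsg.Agent.Helper2
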