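import Cfsg.Agent.Helper2.CharInd

set_option autoImplicit false

namespace Cfsg.Agent.Helper2

open Cfsg

universe u v w

/-- A nonzero finite-dimensional representation has an irreducible subrepresentation. -/
theorem exists_irreducible_subrep {G : Type u} [Group G] {V : Type v} [AddCommGroup V]
    [Module ℂ V] [FiniteDimensional ℂ V] [Nontrivial V] (ρ : Representation ℂ G V) :
    ∃ U : Subrepresentation ρ, U.toRepresentation.IsIrreducible ∧ Nontrivial U.toSubmodule := by
  classical
  have hex : ∃ n : ℕ, ∃ U : Subrepresentation ρ, U ≠ ⊥ ∧ Module.finrank ℂ U.toSubmodule = n := by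
    refine ⟨_, ⊤, ?_, rfl⟩
    intro h
    have h2 : (⊤ : Submodule ℂ V) = ⊥ := congrArg Subrepresentation.toSubmodule h
    exact top_ne_bot h2
  obtain ⟨U, hU, hn⟩ := Nat.find_spec hex
  have hmin : ∀ U' : Subrepresentation ρ, U' ≠ ⊥ →
      Module.finrank ℂ U.toSubmodule ≤ Module.finrank ℂ U'.toSubmodule := by
    intro U' hU'
    rw [hn]
    exact Nat.find_min' hex ⟨U', hU', rfl⟩
  have hUs : U.toSubmodule ≠ ⊥ := fun h => hU (Subrepresentation.toSubmodule_injective h)
  have hnt : Nontrivial U.toSubmodule := (Submodule.nontrivial_iff_ne_bot).mpr hUs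
  refine ⟨U, ?_, hnt⟩
  have hbt : (⊥ : Subrepresentation U.toRepresentation) ≠ ⊤ := by
    intro h
    have h2 : (⊥ : Submodule ℂ U.toSubmodule) = ⊤ := congrArg Subrepresentation.toSubmodule h
    exact bot_ne_top h2
  refine { exists_pair_ne := ⟨⊥, ⊤, hbt⟩, eq_bot_or_eq_top := ?_ }
  intro τ
  by_cases hτ : τ = ⊥
  · exact Or.inl hτ
  right
  let τ' : Subrepresentation ρ :=
    { toSubmodule := τ.toSubmodule.map U.toSubmodule.subtype
      apply_mem_toSubmodule := by
        intro g v hv
        obtain ⟨x, hx, rfl⟩ := hv
        exact ⟨U.toRepresentation g x, τ.apply_mem_toSubmodule g hx, rfl⟩ }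
  have hτs : τ.toSubmodule ≠ ⊥ := fun h => hτ (Subrepresentation.toSubmodule_injective h)
  have hτ' : τ' ≠ ⊥ := by
    intro h
    have h2 : τ.toSubmodule.map U.toSubmodule.subtype = ⊥ :=
      congrArg Subrepresentation.toSubmodule h
    apply hτs
    rw [eq_bot_iff]
    intro x hx
    have h3 : U.toSubmodule.subtype x ∈ τ.toSubmodule.map U.toSubmodule.subtype := ⟨x, hx, rfl⟩
    rw [h2] at h3
    have h4 : (x : V) = 0 := h3
    exact Subtype.ext h4
  have h1 := hmin τ' hτ'
  have h2 : Module.finrank ℂ τ'.toSubmodule = Module.finrank ℂ τ.toSubmodule :=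
    LinearEquiv.finrank_eq
      (Submodule.equivMapOfInjective U.toSubmodule.subtype (Submodule.injective_subtype _)
        τ.toSubmodule).symm
  rw [h2] at h1
  have h3 : τ.toSubmodule = ⊤ :=
    Submodule.eq_top_of_finrank_eq (le_antisymm (Submodule.finrank_le _) h1)
  exact Subrepresentation.toSubmodule_injective h3

theorem isCompl_toSubmodule {G : Type u} [Group G] {V : Type v} [AddCommGroup V]
    [Module ℂ V] {ρ : Representation ℂ G V} {σ τ : Subrepresentation ρ} (h : IsCompl σ τ) :
    IsCompl σ.toSubmodule τ.toSubmodule := by
  constructor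
  · rw [disjoint_iff]
    have := h.inf_eq_bot
    exact congrArg Subrepresentation.toSubmodule this
  · rw [codisjoint_iff]
    have := h.sup_eq_top
    exact congrArg Subrepresentation.toSubmodule this

/-- Gluing equivalences of complementary subrepresentations. -/
theorem equiv_of_isCompl {G : Type u} [Group G] {V : Type v} {W : Type w} [AddCommGroup V]
    [Module ℂ V] [AddCommGroup W] [Module ℂ W] (ρ : Representation ℂ G V)
    (σ : Representation ℂ G W) (U U' : Subrepresentation ρ) (T T' : Subrepresentation σ)
    (hU : IsCompl U U') (hT : IsCompl T T')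
    (e1 : U.toRepresentation.Equiv T.toRepresentation)
    (e2 : U'.toRepresentation.Equiv T'.toRepresentation) : Nonempty (ρ.Equiv σ) := by
  have hcU := isCompl_toSubmodule hU
  have hcT := isCompl_toSubmodule hT
  let eU := Submodule.prodEquivOfIsCompl U.toSubmodule U'.toSubmodule hcU
  let eT := Submodule.prodEquivOfIsCompl T.toSubmodule T'.toSubmodule hcT
  let e : V ≃ₗ[ℂ] W := eU.symm ≪≫ₗ (LinearEquiv.prodCongr e1.toLinearEquiv e2.toLinearEquiv) ≪≫ₗ eT
  refine ⟨Representation.Equiv.mk e ?_⟩
  intro g
  apply LinearMap.ext
  intro v
  obtain ⟨⟨a, b⟩, rfl⟩ := eU.surjective v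
  have h1 : ρ g (eU (a, b)) = eU (U.toRepresentation g a, U'.toRepresentation g b) := by
    simp only [eU, Submodule.coe_prodEquivOfIsCompl', map_add]
    rfl
  have h2 : ∀ x : U.toSubmodule × U'.toSubmodule, e (eU x) =
      ((e1 x.1 : T.toSubmodule) : W) + ((e2 x.2 : T'.toSubmodule) : W) := by
    intro x
    simp only [e, LinearEquiv.trans_apply, LinearEquiv.symm_apply_apply, eT,
      Submodule.coe_prodEquivOfIsCompl', LinearEquiv.prodCongr_apply]
    rfl
  show e (ρ g (eU (a, b))) = σ g (e (eU (a, b)))
  rw [h1, h2, h2, map_add]
  have h3 : ((e1 (U.toRepresentation g a) : T.toSubmodule) : W) = σ g ((e1 a : T.toSubmodule) : W) := by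
    have := Representation.IntertwiningMap.isIntertwining _ _ e1.toIntertwiningMap g a
    exact congrArg Subtype.val this
  have h4 : ((e2 (U'.toRepresentation g b) : T'.toSubmodule) : W) =
      σ g ((e2 b : T'.toSubmodule) : W) := by
    have := Representation.IntertwiningMap.isIntertwining _ _ e2.toIntertwiningMap g b
    exact congrArg Subtype.val this
  rw [h3, h4]

/-- Complex representations of a finite group with equal characters are equivalent. -/
theorem rep_equiv_of_character_eq {G : Type u} [Group G] [Finite G] :
    ∀ (n : ℕ) (V : Type v) (W : Type w) [AddCommGroup V] [Module ℂ V] [FiniteDimensional ℂ V]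
      [AddCommGroup W] [Module ℂ W] [FiniteDimensional ℂ W] (ρ : Representation ℂ G V)
      (σ : Representation ℂ G W), Module.finrank ℂ V = n → ρ.character = σ.character →
      Nonempty (ρ.Equiv σ) := by
  classical
  intro n
  induction n using Nat.strong_induction_on with
  | _ n ih =>
    intro V W _ _ _ _ _ _ ρ σ hn h
    have hdim : Module.finrank ℂ V = Module.finrank ℂ W := by
      have h1 := congrFun h 1
      rw [Representation.char_one, Representation.char_one] at h1
      exact_mod_cast h1
    by_cases hs : Subsingleton V
    · have hW : Subsingleton W := by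
        have : Module.finrank ℂ W = 0 := by
          rw [← hdim]; exact Module.finrank_zero_of_subsingleton
        exact Module.finrank_zero_iff.mp this
      refine ⟨Representation.Equiv.mk (LinearEquiv.ofSubsingleton V W) ?_⟩
      intro g
      apply LinearMap.ext
      intro v
      exact Subsingleton.elim _ _
    rw [not_subsingleton_iff_nontrivial] at hs
    obtain ⟨U, hUirr, hUnt⟩ := exists_irreducible_subrep ρ
    have hne : NeZero (Nat.card G : ℂ) := ⟨by exact_mod_cast Nat.card_pos.ne'⟩
    obtain ⟨U', hU'⟩ := exists_isCompl U
    have hχ := character_eq_add_of_isCompl ρ U U' hU'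
    let _ : Fintype G := Fintype.ofFinite G
    let _ : Invertible (Nat.card G : ℂ) := invertibleOfNonzero hne.ne
    have hfin : Module.finrank ℂ (Representation.IntertwiningMap U.toRepresentation σ) ≠ 0 := by
      have e1 := Representation.card_inv_mul_sum_char_mul_char_eq_finrank U.toRepresentation σ
      have e2 := Representation.card_inv_mul_sum_char_mul_char_eq_finrank U.toRepresentation
        U.toRepresentation
      have e3 := Representation.card_inv_mul_sum_char_mul_char_eq_finrank U.toRepresentation
        U'.toRepresentation
      rw [Representation.IsIrreducible.finrank_intertwiningMap_self] at e2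
      have e4 : ((Module.finrank ℂ (Representation.IntertwiningMap U.toRepresentation σ) : ℕ) : ℂ)
          = ((1 : ℕ) : ℂ) + (Module.finrank ℂ (Representation.IntertwiningMap U.toRepresentation
            U'.toRepresentation) : ℂ) := by
        rw [← e1, ← e2, ← e3, ← mul_add, ← Finset.sum_add_distrib, ← h, hχ]
        congr 1
        apply Finset.sum_congr rfl
        intro g _
        rw [Pi.add_apply, add_mul]
      intro h0
      rw [h0] at e4
      have e5 : (0 : ℕ) = 1 + Module.finrank ℂ (Representation.IntertwiningMap U.toRepresentation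
            U'.toRepresentation) := by exact_mod_cast e4
      omega
    have hexf : ∃ f : Representation.IntertwiningMap U.toRepresentation σ, f ≠ 0 := by
      by_contra hcon
      push Not at hcon
      apply hfin
      have : Subsingleton (Representation.IntertwiningMap U.toRepresentation σ) :=
        ⟨fun a b => (hcon a).trans (hcon b).symm⟩
      exact Module.finrank_zero_of_subsingleton
    obtain ⟨f, hf⟩ := hexf
    have hinj : Function.Injective f :=
      (Representation.IsIrreducible.injective_or_eq_zero f).resolve_right hf
    let T : Subrepresentation σ := f.range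
    have hinj' : Function.Injective f.toLinearMap := hinj
    let e1l : U.toSubmodule ≃ₗ[ℂ] T.toSubmodule := LinearEquiv.ofInjective f.toLinearMap hinj'
    have e1 : U.toRepresentation.Equiv T.toRepresentation := by
      refine Representation.Equiv.mk e1l ?_
      intro g
      apply LinearMap.ext
      intro v
      apply Subtype.ext
      exact Representation.IntertwiningMap.isIntertwining _ _ f g v
    obtain ⟨T', hT'⟩ := exists_isCompl T
    have hχ2 := character_eq_add_of_isCompl σ T T' hT'
    have hχ3 : U'.toRepresentation.character = T'.toRepresentation.character := by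
      have := Representation.char_iso e1
      rw [hχ, hχ2, this] at h
      exact add_left_cancel h
    have hlt : Module.finrank ℂ U'.toSubmodule < n := by
      have h1 := Submodule.finrank_add_eq_of_isCompl (isCompl_toSubmodule hU')
      have h2 : 0 < Module.finrank ℂ U.toSubmodule := Module.finrank_pos
      omega
    obtain ⟨e2⟩ := ih _ hlt U'.toSubmodule T'.toSubmodule U'.toRepresentation T'.toRepresentation
      rfl hχ3
    exact equiv_of_isCompl ρ σ U U' T T' hU' hT' e1 e2

end Cfsg.Agent.Helper2
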