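import Mathlib

set_option autoImplicit false

namespace Cfsg.Agent.Helper2

open Matrix

section

variable {K : Type*} [Field K]

theorem trace_eq_two_of_fix (g : Matrix (Fin 2) (Fin 2) K) (hdet : g.det = 1) (v : Fin 2 → K)
    (hv : v ≠ 0) (hgv : g *ᵥ v = v) : g 0 0 + g 1 1 = 2 := by
  have h0 := congrFun hgv 0
  have h1 := congrFun hgv 1
  simp only [Matrix.mulVec, dotProduct, Fin.sum_univ_two] at h0 h1
  rw [Matrix.det_fin_two] at hdet
  have hne : v 0 ≠ 0 ∨ v 1 ≠ 0 := by
    by_contra hcon
    push Not at hcon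
    apply hv
    ext i
    fin_cases i
    · exact hcon.1
    · exact hcon.2
  have k0 : (g 0 0 + g 1 1 - 2) * v 0 = 0 := by
    linear_combination (-(g 1 1 - 1)) * h0 + g 0 1 * h1 + v 0 * hdet
  have k1 : (g 0 0 + g 1 1 - 2) * v 1 = 0 := by
    linear_combination (-(g 0 0 - 1)) * h1 + g 1 0 * h0 + v 1 * hdet
  rcases hne with h | h
  · have := (mul_eq_zero.mp k0).resolve_right h
    linear_combination this
  · have := (mul_eq_zero.mp k1).resolve_right h
    linear_combination this

theorem sq_sub_one_eq_zero (g : Matrix (Fin 2) (Fin 2) K) (hdet : g.det = 1)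
    (htr : g 0 0 + g 1 1 = 2) : (g - 1) * (g - 1) = 0 := by
  rw [Matrix.det_fin_two] at hdet
  ext i j
  fin_cases i <;> fin_cases j
  · simp [Matrix.mul_apply, Fin.sum_univ_two]
    linear_combination g 0 0 * htr - hdet
  · simp [Matrix.mul_apply, Fin.sum_univ_two]
    linear_combination g 0 1 * htr
  · simp [Matrix.mul_apply, Fin.sum_univ_two]
    linear_combination g 1 0 * htr
  · simp [Matrix.mul_apply, Fin.sum_univ_two]
    linear_combination g 1 1 * htr - hdet

theorem pow_char_eq_one_of_sq (p : ℕ) [CharP K p] (g : Matrix (Fin 2) (Fin 2) K)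
    (hN : (g - 1) * (g - 1) = 0) : g ^ p = 1 := by
  have key : ∀ k : ℕ, g ^ k = 1 + (k : K) • (g - 1) := by
    intro k
    induction k with
    | zero => simp
    | succ k ih =>
      rw [pow_succ, ih]
      have hg : g = 1 + (g - 1) := by abel
      calc (1 + (k : K) • (g - 1)) * g = (1 + (k : K) • (g - 1)) * (1 + (g - 1)) := by rw [← hg]
        _ = 1 + (k : K) • (g - 1) + (g - 1) + (k : K) • ((g - 1) * (g - 1)) := by
            rw [mul_add, mul_one, add_mul, one_mul, smul_mul_assoc]; abel
        _ = 1 + ((k + 1 : ℕ) : K) • (g - 1) := by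
            rw [hN, smul_zero, add_zero]; push_cast; rw [add_smul, one_smul]; abel
  rw [key p, CharP.cast_eq_zero, zero_smul, add_zero]

end

/-- A finite `r`-group (`r` an odd prime different from the characteristic) embedded in
`SL₂(K)`, `K` algebraically closed, is cyclic. -/
theorem cyclic_of_pgroup_SL2 {K : Type*} [Field K] [IsAlgClosed K] (p : ℕ) [hp : Fact p.Prime]
    [CharP K p] {G : Type*} [Group G] [Finite G] (r : ℕ) [hr : Fact r.Prime] (hr2 : r ≠ 2)
    (hrp : r ≠ p) (hG : IsPGroup r G) (ψ : G →* Matrix.SpecialLinearGroup (Fin 2) K)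
    (hψ : Function.Injective ψ) : IsCyclic G := by
  classical
  rcases subsingleton_or_nontrivial G with hs | hnt
  · exact isCyclic_of_subsingleton
  obtain ⟨k, hk⟩ := IsPGroup.iff_card.mp hG
  have hord : ∀ g : G, ∀ m : ℕ, Nat.Coprime m r → g ^ m = 1 → g = 1 := by
    intro g m hm hgm
    have h1 : orderOf g ∣ m := orderOf_dvd_of_pow_eq_one hgm
    have h2 : orderOf g ∣ r ^ k := hk ▸ orderOf_dvd_natCard g
    have h3 : orderOf g ∣ Nat.gcd m (r ^ k) := Nat.dvd_gcd h1 h2
    have h4 : Nat.gcd m (r ^ k) = 1 := Nat.Coprime.pow_right k hm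
    rw [h4, Nat.dvd_one] at h3
    exact orderOf_eq_one_iff.mp h3
  have hcn : Nontrivial (Subgroup.center G) := hG.center_nontrivial
  obtain ⟨z, hz1⟩ := exists_ne (1 : Subgroup.center G)
  have hz1' : (z : G) ≠ 1 := fun h => hz1 (Subtype.ext h)
  have hzc : ∀ g : G, g * z = z * g := fun g => Subgroup.mem_center_iff.mp z.2 g
  have hdetZ : ((ψ z).1).det = 1 := (ψ z).2
  rw [Matrix.det_fin_two] at hdetZ
  -- Z is not scalar
  have hns : ¬ ((ψ z).1 0 1 = 0 ∧ (ψ z).1 1 0 = 0 ∧ (ψ z).1 0 0 = (ψ z).1 1 1) := by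
    rintro ⟨h01, h10, h00⟩
    have hsq : (ψ z).1 * (ψ z).1 = 1 := by
      rw [h01, h10, h00] at hdetZ
      ext i j
      fin_cases i <;> fin_cases j
      · simp [Matrix.mul_apply, Fin.sum_univ_two, h01, h10, h00]
        linear_combination hdetZ
      · simp [Matrix.mul_apply, Fin.sum_univ_two, h01, h10, h00]
      · simp [Matrix.mul_apply, Fin.sum_univ_two, h01, h10, h00]
      · simp [Matrix.mul_apply, Fin.sum_univ_two, h01, h10, h00]
        linear_combination hdetZ
    have hz2 : (z : G) ^ 2 = 1 := by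
      apply hψ
      rw [map_pow, map_one, pow_two]
      apply Subtype.ext
      rw [Matrix.SpecialLinearGroup.coe_mul]
      exact hsq
    exact hz1' (hord z 2 ((Nat.coprime_primes Nat.prime_two hr.out).mpr hr2.symm) hz2)
  -- an eigenvalue
  obtain ⟨lam, hlam⟩ : ∃ lam : K, lam * lam - ((ψ z).1 0 0 + (ψ z).1 1 1) * lam + 1 = 0 := by
    obtain ⟨x, hx⟩ := IsAlgClosed.exists_root
      (Polynomial.C (1 : K) * Polynomial.X ^ 2 +
        Polynomial.C (-((ψ z).1 0 0 + (ψ z).1 1 1)) * Polynomial.X + Polynomial.C 1)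
      (by rw [Polynomial.degree_quadratic one_ne_zero]; norm_num)
    refine ⟨x, ?_⟩
    simp only [Polynomial.IsRoot, Polynomial.eval_add, Polynomial.eval_mul, Polynomial.eval_C,
      Polynomial.eval_pow, Polynomial.eval_X] at hx
    linear_combination hx
  -- an eigenvector
  obtain ⟨v, hv0, hZv⟩ : ∃ v : Fin 2 → K, v ≠ 0 ∧ (ψ z).1 *ᵥ v = lam • v := by
    by_cases h1 : (ψ z).1 0 1 = 0 ∧ lam - (ψ z).1 0 0 = 0
    · refine ⟨![lam - (ψ z).1 1 1, (ψ z).1 1 0], ?_, ?_⟩
      · intro h
        have e0 := congrFun h 0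
        have e1 := congrFun h 1
        simp at e0 e1
        exact hns ⟨h1.1, e1, by linear_combination e0 - h1.2⟩
      · ext i
        fin_cases i
        · simp [Matrix.mulVec, dotProduct, Fin.sum_univ_two]
          linear_combination (-1 : K) * hlam - hdetZ
        · simp [Matrix.mulVec, dotProduct, Fin.sum_univ_two]
          ring
    · refine ⟨![(ψ z).1 0 1, lam - (ψ z).1 0 0], ?_, ?_⟩
      · intro h
        have e0 := congrFun h 0
        have e1 := congrFun h 1
        simp at e0 e1
        exact h1 ⟨e0, e1⟩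
      · ext i
        fin_cases i
        · simp [Matrix.mulVec, dotProduct, Fin.sum_univ_two]
          ring
        · simp [Matrix.mulVec, dotProduct, Fin.sum_univ_two]
          linear_combination (-1 : K) * hlam - hdetZ
  have hne : v 0 ≠ 0 ∨ v 1 ≠ 0 := by
    by_contra hcon
    push Not at hcon
    apply hv0
    ext i
    fin_cases i
    · exact hcon.1
    · exact hcon.2
  -- the eigenspace is a line
  have hline : ∀ w : Fin 2 → K, (ψ z).1 *ᵥ w = lam • w → ∃ c : K, w = c • v := by
    intro w hw
    have hD : v 0 * w 1 - v 1 * w 0 = 0 := by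
      by_contra hD
      apply hns
      have ev0 := congrFun hZv 0
      have ev1 := congrFun hZv 1
      have ew0 := congrFun hw 0
      have ew1 := congrFun hw 1
      simp only [Matrix.mulVec, dotProduct, Fin.sum_univ_two, Pi.smul_apply, smul_eq_mul]
        at ev0 ev1 ew0 ew1
      have hb : (ψ z).1 0 1 * (v 0 * w 1 - v 1 * w 0) = 0 := by
        linear_combination v 0 * ew0 - w 0 * ev0
      have ha : ((ψ z).1 0 0 - lam) * (v 0 * w 1 - v 1 * w 0) = 0 := by
        linear_combination w 1 * ev0 - v 1 * ew0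
      have hc : (ψ z).1 1 0 * (v 0 * w 1 - v 1 * w 0) = 0 := by
        linear_combination w 1 * ev1 - v 1 * ew1
      have hd : ((ψ z).1 1 1 - lam) * (v 0 * w 1 - v 1 * w 0) = 0 := by
        linear_combination v 0 * ew1 - w 0 * ev1
      have hb' := (mul_eq_zero.mp hb).resolve_right hD
      have ha' := (mul_eq_zero.mp ha).resolve_right hD
      have hc' := (mul_eq_zero.mp hc).resolve_right hD
      have hd' := (mul_eq_zero.mp hd).resolve_right hD
      exact ⟨hb', hc', by linear_combination ha' - hd'⟩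
    rcases hne with h | h
    · refine ⟨w 0 / v 0, ?_⟩
      ext i
      fin_cases i
      · simp only [Fin.zero_eta, Pi.smul_apply, smul_eq_mul]
        field_simp
      · simp only [Fin.mk_one, Pi.smul_apply, smul_eq_mul]
        field_simp
        linear_combination hD
    · refine ⟨w 1 / v 1, ?_⟩
      ext i
      fin_cases i
      · simp only [Fin.zero_eta, Pi.smul_apply, smul_eq_mul]
        field_simp
        linear_combination (-1 : K) * hD
      · simp only [Fin.mk_one, Pi.smul_apply, smul_eq_mul]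
        field_simp
  -- common eigenvector
  have hcommon : ∀ g : G, ∃ c : K, (ψ g).1 *ᵥ v = c • v := by
    intro g
    apply hline
    have hcomm : ψ z * ψ g = ψ g * ψ z := by rw [← map_mul, ← map_mul, hzc g]
    have hcomm' : (ψ z).1 * (ψ g).1 = (ψ g).1 * (ψ z).1 := by
      rw [← Matrix.SpecialLinearGroup.coe_mul, ← Matrix.SpecialLinearGroup.coe_mul, hcomm]
    rw [Matrix.mulVec_mulVec, hcomm', ← Matrix.mulVec_mulVec, hZv, Matrix.mulVec_smul]
  choose f hf using hcommon
  have hsmul_inj : ∀ c c' : K, c • v = c' • v → c = c' := by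
    intro c c' h
    by_contra hne'
    apply hv0
    have h2 : (c - c') • v = 0 := by rw [sub_smul, h, sub_self]
    rcases smul_eq_zero.mp h2 with h0 | h0
    · exact absurd (sub_eq_zero.mp h0) hne'
    · exact h0
  have hf1 : f 1 = 1 := by
    apply hsmul_inj
    rw [← hf 1, map_one, one_smul, Matrix.SpecialLinearGroup.coe_one, Matrix.one_mulVec]
  have hfmul : ∀ g h : G, f (g * h) = f g * f h := by
    intro g h
    apply hsmul_inj
    rw [← hf (g * h), map_mul, Matrix.SpecialLinearGroup.coe_mul, ← Matrix.mulVec_mulVec, hf h,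
      Matrix.mulVec_smul, hf g, smul_smul, mul_comm]
  have hker : ∀ g : G, f g = 1 → g = 1 := by
    intro g hg
    have hfix : (ψ g).1 *ᵥ v = v := by rw [hf g, hg, one_smul]
    have htr := trace_eq_two_of_fix (ψ g).1 (ψ g).2 v hv0 hfix
    have hN := sq_sub_one_eq_zero (ψ g).1 (ψ g).2 htr
    have hpow := pow_char_eq_one_of_sq p (ψ g).1 hN
    have hgp : g ^ p = 1 := by
      apply hψ
      rw [map_pow, map_one]
      apply Subtype.ext
      rw [Matrix.SpecialLinearGroup.coe_pow, hpow]
      rfl
    exact hord g p ((Nat.coprime_primes hp.out hr.out).mpr hrp.symm) hgp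
  have hFinj : Function.Injective
      ({ toFun := f, map_one' := hf1, map_mul' := hfmul } : G →* K) := by
    intro g h hgh
    have hgh' : f g = f h := hgh
    have hfg : f g ≠ 0 := by
      intro h0
      have h3 : f g * f g⁻¹ = 1 := by rw [← hfmul, mul_inv_cancel, hf1]
      rw [h0, zero_mul] at h3
      exact zero_ne_one h3
    have h1 : f (g⁻¹ * h) = 1 := by
      have h2 : f g * f (g⁻¹ * h) = f g * 1 := by
        rw [← hfmul, mul_inv_cancel_left, mul_one]; exact hgh'.symm
      exact mul_left_cancel₀ hfg h2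
    have h4 := hker _ h1
    exact inv_mul_eq_one.mp h4
  exact isCyclic_of_subgroup_isDomain _ hFinj

end Cfsg.Agent.Helper2
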